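import Cfsg.Agent.H18.Basic
import Cfsg.Prelude.Def_QuasithinSetup

/-! Interface for S1829 (`M ≅ S₄ ≀ 2`): the model `TT = D₈ ≀ 2` of the Sylow subgroup and the pieces. -/

set_option autoImplicit false

namespace H326.Qw
open Subgroup DihedralGroup
universe u

abbrev D := DihedralGroup 4

/-- `D₈ ≀ 2` -/
@[ext] structure TT where
  a : D
  b : D
  e : Bool
deriving DecidableEq, Fintype

instance : Group TT where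
  mul x y := if x.e then ⟨x.a * y.b, x.b * y.a, !y.e⟩ else ⟨x.a * y.a, x.b * y.b, y.e⟩
  one := ⟨1, 1, false⟩
  inv x := if x.e then ⟨x.b⁻¹, x.a⁻¹, true⟩ else ⟨x.a⁻¹, x.b⁻¹, false⟩
  mul_assoc := by
    rintro ⟨a, b, _ | _⟩ ⟨c, d, _ | _⟩ ⟨e, f, _ | _⟩ <;> exact TT.ext (mul_assoc _ _ _) (mul_assoc _ _ _) rfl
  one_mul := by rintro ⟨a, b, _ | _⟩ <;> exact TT.ext (one_mul _) (one_mul _) rfl
  mul_one := by rintro ⟨a, b, _ | _⟩ <;> exact TT.ext (mul_one _) (mul_one _) rfl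
  inv_mul_cancel := by rintro ⟨a, b, _ | _⟩ <;> exact TT.ext (inv_mul_cancel _) (inv_mul_cancel _) rfl

theorem mul_def (x y : TT) :
    x * y = if x.e then ⟨x.a * y.b, x.b * y.a, !y.e⟩ else ⟨x.a * y.a, x.b * y.b, y.e⟩ := rfl
theorem card_TT : Nat.card TT = 128 := by rw [Nat.card_eq_fintype_card]; rfl

def z1 : TT := ⟨r 2, 1, false⟩
def z2 : TT := ⟨1, r 2, false⟩
def z : TT := ⟨r 2, r 2, false⟩
def v1 : TT := ⟨sr 0, 1, false⟩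
def v2 : TT := ⟨1, sr 0, false⟩
def u1 : TT := ⟨sr 1, 1, false⟩
def u2 : TT := ⟨1, sr 1, false⟩
def s : TT := ⟨1, 1, true⟩

/-- subgroups of `D₈` by number: `0` trivial, `1` centre, `2` the four-group `V`, `3` the four-group `U`, `4` all -/
def mD (k : Fin 5) (d : D) : Bool :=
  if k = 0 then d = 1 else if k = 1 then d = 1 ∨ d = r 2 else
  if k = 2 then d = 1 ∨ d = r 2 ∨ d = sr 0 ∨ d = sr 2 else
  if k = 3 then d = 1 ∨ d = r 2 ∨ d = sr 1 ∨ d = sr 3 else true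

theorem mD_mul : ∀ k x y, mD k x = true → mD k y = true → mD k (x * y) = true := by decide
theorem mD_inv : ∀ k x, mD k x = true → mD k x⁻¹ = true := by decide
theorem mD_one : ∀ k, mD k 1 = true := by decide

/-- `X_k × X_l` in the base group -/
def Pr (k l : Fin 5) : Subgroup TT where
  carrier := {t | t.e = false ∧ mD k t.a = true ∧ mD l t.b = true}
  one_mem' := ⟨rfl, mD_one k, mD_one l⟩
  mul_mem' := by
    rintro ⟨a, b, e⟩ ⟨c, d, f⟩ ⟨rfl, h1, h2⟩ ⟨rfl, h3, h4⟩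
    exact ⟨rfl, mD_mul _ _ _ h1 h3, mD_mul _ _ _ h2 h4⟩
  inv_mem' := by
    rintro ⟨a, b, e⟩ ⟨rfl, h1, h2⟩
    exact ⟨rfl, mD_inv _ _ h1, mD_inv _ _ h2⟩

theorem mem_Pr {k l : Fin 5} {t : TT} : t ∈ Pr k l ↔ t.e = false ∧ mD k t.a = true ∧ mD l t.b = true := Iff.rfl
instance (k l : Fin 5) (t : TT) : Decidable (t ∈ Pr k l) := decidable_of_iff _ mem_Pr.symm

abbrev A := Pr 2 2
abbrev B := Pr 3 3
abbrev E := Pr 2 3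
abbrev E' := Pr 3 2
abbrev J := Pr 4 4
abbrev Z := Pr 1 1
abbrev V1 := Pr 2 0
abbrev U2 := Pr 0 3
abbrev P := Pr 2 4

section
variable {G : Type*} [Group G]

/-- `g` conjugates `ψ X` into `ψ Y` -/
def Mp (ψ : TT →* G) (X Y : Subgroup TT) (g : G) : Prop := ∀ t ∈ X, ∃ t' ∈ Y, g * ψ t * g⁻¹ = ψ t'
def Cj (ψ : TT →* G) (t t' : TT) : Prop := IsConj (ψ t) (ψ t')
/-- the centralizer of `V₁` -/
def CV (ψ : TT →* G) : Subgroup G := centralizer {ψ z1, ψ v1}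

/-- the relations of the element `x` of order three of the first factor `S₄` -/
structure Rx (ψ : TT →* G) (x : G) : Prop where
  inj : Function.Injective ψ
  syl : ¬ 2 ∣ ψ.range.index
  x3 : x ^ 3 = 1
  xz : x * ψ z1 * x⁻¹ = ψ v1
  xv : x * ψ v1 * x⁻¹ = ψ (v1 * z1)
  xu : ψ u1 * x * (ψ u1)⁻¹ = x⁻¹
  xD : ∀ t ∈ Pr 0 4, Commute x (ψ t)
  xx : Commute x (ψ s * x * (ψ s)⁻¹)
  nA : ∀ g, Mp ψ A A g → g * ψ z1 * g⁻¹ ≠ ψ z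
  nAB : ∀ g, Mp ψ A A g → Mp ψ B B g → g ∈ ψ.range

structure Cf (ψ : TT →* G) (x : G) : Prop extends Rx ψ x where
  no2 : ∀ H : Subgroup G, H.index ≠ 2
  K : ∀ R : Subgroup G, Odd (Nat.card R) → (∀ y ∈ R, Commute y (ψ z)) →
    (∀ t ∈ J, ∀ y ∈ R, ψ t * y * (ψ t)⁻¹ ∈ R) → R = ⊥
  qt : ∀ R : Subgroup G, (∀ y ∈ R, Mp ψ V1 V1 y) → (∀ y ∈ R, ∀ y' ∈ R, y * y' = y' * y) → (∀ y ∈ R, y ^ 3 = 1) →
    Nat.card R < 27

structure Wk (ψ : TT →* G) : Prop where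
  nJ : ∀ g, Mp ψ J J g → g ∈ ψ.range
  wA : ∀ g, Mp ψ A ⊤ g → Mp ψ A A g
  wB : ∀ g, Mp ψ B ⊤ g → Mp ψ B B g
  wE : ∀ g, Mp ψ E ⊤ g → Mp ψ E E g ∨ Mp ψ E E' g

structure Fu (ψ : TT →* G) : Prop extends Wk ψ where
  ab : ¬ Cj ψ z1 z
  cB : ∀ t ∈ B, ∀ t' ∈ B, Cj ψ t t' → ∃ g, Mp ψ B B g ∧ g * ψ t * g⁻¹ = ψ t'
  sJ : ¬ 2 ∣ (J.map ψ).relIndex (centralizer {ψ z1})
  exa : ∀ t, Cj ψ t z1 → ∃ g, g * ψ t * g⁻¹ = ψ z1 ∧ Mp ψ (centralizer {t}) J g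
  exb : ∀ t, Cj ψ t z → ∃ g, g * ψ t * g⁻¹ = ψ z ∧ Mp ψ (centralizer {t}) ⊤ g
  sE : ∀ g, Mp ψ E E g → (∃ k : ℕ, g ^ 2 ^ k = 1) → ∀ t ∈ E, Commute (g * g) (ψ t)

def Two (ψ : TT →* G) : Prop := ∀ t : TT, t * t = 1 → t ≠ 1 → Cj ψ t z1 ∨ Cj ψ t z

structure PI (ψ : TT →* G) : Prop where
  ca : Cj ψ u1 z1
  db : Cj ψ (u1 * z2) z
  g : ∃ g ∈ CV ψ, g * ψ u2 * g⁻¹ = ψ z2 ∧ Mp ψ U2 U2 g

def Cy (ψ : TT →* G) : Prop := ∀ g ∈ CV ψ, Commute g (ψ z2) → ∃ t ∈ P, g = ψ t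

def Big (ψ : TT →* G) : Prop := Nat.card (CV ψ) = 1440 ∧ (∀ c ∈ CV ψ, c ^ 9 = 1 → c ^ 3 = 1) ∧
  ∀ H ≤ CV ψ, H.relIndex (CV ψ) ≠ 3
end

/-- the concrete group -/
def P0a : Prop := ∃ (ψ : TT →* Cfsg.blockStabilizerS4wr2) (x : Cfsg.blockStabilizerS4wr2), Rx ψ x ∧ ∀ g, Mp ψ A A g
def P0b : Prop := ∀ (G : Type u) [Group G] [Finite G] [IsSimpleGroup G], ¬ IsMulCommutative G → Cfsg.IsQTKE G →
  ∀ (T : Sylow 2 G) (M : Subgroup G), M ∈ Cfsg.maxTwoLocalsContaining (T : Subgroup G) →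
  Nonempty (M ≃* Cfsg.blockStabilizerS4wr2) → ∃ (ψ : TT →* G) (x : G), Cf ψ x
def P1a : Prop := ∀ (G : Type u) [Group G] [Finite G] (ψ : TT →* G) (x : G), Cf ψ x → Wk ψ
def P1b : Prop := ∀ (G : Type u) [Group G] [Finite G] (ψ : TT →* G) (x : G), Cf ψ x → Wk ψ → Fu ψ
def P2 : Prop := ∀ (G : Type u) [Group G] [Finite G] (ψ : TT →* G) (x : G), Cf ψ x → Fu ψ → Two ψ
def P3 : Prop := ∀ (G : Type u) [Group G] [Finite G] (ψ : TT →* G) (x : G), Cf ψ x → Fu ψ → Two ψ → PI ψ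
def P4 : Prop := ∀ (G : Type u) [Group G] [Finite G] (ψ : TT →* G) (x : G), Cf ψ x → Fu ψ → Two ψ → PI ψ →
  Cj ψ (u1 * u2) z1
def P5 : Prop := ∀ (G : Type u) [Group G] [Finite G] (ψ : TT →* G) (x : G), Cf ψ x → Fu ψ → Cy ψ
def P6 : Prop := ∀ (G : Type u) [Group G] [Finite G] (ψ : TT →* G) (x : G), Cf ψ x → Fu ψ → PI ψ → Cy ψ →
  Nat.card (CV ψ) = 672 ∨ Big ψ
def P7 : Prop := ∀ (G : Type u) [Group G] [Finite G] (ψ : TT →* G) (x : G), Cf ψ x → Fu ψ → PI ψ →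
  Cj ψ (u1 * u2) z1 → Cy ψ → Nat.card (CV ψ) ≠ 672
def P8 : Prop := ∀ (G : Type u) [Group G] [Finite G] (ψ : TT →* G) (x : G), Cf ψ x → Fu ψ → PI ψ → Cy ψ → ¬ Big ψ

theorem final (h0 : P0b.{u}) (h1 : P1a.{u}) (h1' : P1b.{u}) (h2 : P2.{u}) (h3 : P3.{u}) (h4 : P4.{u}) (h5 : P5.{u})
    (h6 : P6.{u}) (h7 : P7.{u}) (h8 : P8.{u}) {G : Type u} [Group G] [Finite G] [IsSimpleGroup G]
    (hG : ¬ IsMulCommutative G) (hQ : Cfsg.IsQTKE G) (T : Sylow 2 G) (M : Subgroup G)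
    (hM : M ∈ Cfsg.maxTwoLocalsContaining (T : Subgroup G))
    (hW : Nonempty (↥M ≃* ↥Cfsg.blockStabilizerS4wr2)) : False := by
  obtain ⟨ψ, x, c⟩ := h0 G hG hQ T M hM hW
  have f := h1' G ψ x c (h1 G ψ x c)
  have t := h2 G ψ x c f
  have p := h3 G ψ x c f t
  have y := h5 G ψ x c f
  rcases h6 G ψ x c f p y with h | h
  · exact h7 G ψ x c f p (h4 G ψ x c f t p) y h
  · exact h8 G ψ x c f p y h

end H326.Qw
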