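import Cfsg.Agent.H8.Bs0
import Cfsg.Agent.H26.BsG0

/-! Three colours for a primitive solvable group of order prime to three. -/

set_option autoImplicit false
set_option synthInstance.maxSize 4000

namespace H326.BsG
open Subgroup Cfsg H18 H21.Rb

universe u

variable {G : Type*} [Group G] {W A : Subgroup G}

/-- a set with small stabilizer -/
def Gd (W A : Subgroup G) : Prop :=
  ∃ D : Set G, (∀ x ∈ D, x ∈ W ∧ x ≠ 1) ∧ ∀ t ∈ A, (∀ x ∈ D, t * x * t⁻¹ ∈ D) → t ∈ C(W)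

def R3 (W A : Subgroup G) (a b c : G) : Prop :=
  ∀ t ∈ A, t * a * t⁻¹ = a → t * b * t⁻¹ = b → t * c * t⁻¹ = c → t ∈ C(W)

def s (x : G) (b : Bool) : G := if b then x else 1
def ev (a b c : G) (v : V) : G := s a v.1 * s b v.2.1 * s c v.2.2

theorem cj_mul (t x y : G) : t * (x * y) * t⁻¹ = t * x * t⁻¹ * (t * y * t⁻¹) := by group
theorem cj_inj {t x y : G} (h : t * x * t⁻¹ = t * y * t⁻¹) : x = y := by simpa using h

theorem fix_cl {t : G} {S : Set G} (h : ∀ x ∈ S, t * x * t⁻¹ = x) {y : G} (hy : y ∈ closure S) :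
    t * y * t⁻¹ = y := by
  induction hy using closure_induction with
  | mem x hx => exact h x hx
  | one => simp
  | mul x y _ _ h1 h2 => rw [cj_mul, h1, h2]
  | inv x _ h1 => rw [← conj_inv, h1]

theorem two3 (aW : Abel W) (el : ∀ x ∈ W, x * x = 1) (h3 : ∀ t ∈ A, t ^ 3 ∈ C(W) → t ∈ C(W)) {a b c : G}
    (ha : a ∈ W) (hb : b ∈ W) (hc : c ∈ W) (a1 : a ≠ 1) (b1 : b ∉ closure {a}) (c1 : c ∉ closure {a, b})
    (r : R3 W A a b c) : Gd W A := by
  have sW : ∀ x ∈ W, ∀ u, s x u ∈ W := fun x hx u => by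
    cases u
    · exact one_mem _
    · exact hx
  have eW : ∀ v, ev a b c v ∈ W := fun v => mul_mem (mul_mem (sW a ha _) (sW b hb _)) (sW c hc _)
  have sx : ∀ x ∈ W, ∀ u v, s x (xor u v) = s x u * s x v := fun x hx u v => by
    cases u <;> cases v <;> simp [s, el x hx]
  have cm : ∀ x ∈ W, ∀ y ∈ W, Commute x y := fun x hx y hy => comm_of_cent aW hx hy
  have ea : ∀ v w, ev a b c (ad v w) = ev a b c v * ev a b c w := fun v w => by
    simp only [ev, ad]
    rw [sx a ha, sx b hb, sx c hc, (cm _ (sW a ha _) _ (sW b hb _)).mul_mul_mul_comm,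
      (cm _ (mul_mem (sW a ha _) (sW b hb _)) _ (sW c hc _)).mul_mul_mul_comm]
  have e0 : ev a b c (vv 0) = 1 := by simp [ev, s, vv]
  have ma : a ∈ closure ({a, b} : Set G) := subset_closure (by simp)
  have mb : b ∈ closure ({a, b} : Set G) := subset_closure (by simp)
  have e1 : ∀ v, ev a b c v = 1 → v = vv 0 := by
    rintro ⟨x, y, z⟩ h
    cases z
    · cases y
      · cases x
        · rfl
        · exact absurd (by simpa [ev, s] using h) a1
      · refine absurd ?_ b1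
        have : b = (s a x)⁻¹ := by
          rw [eq_inv_iff_mul_eq_one, ← (cm _ (sW a ha _) _ hb).eq]; simpa [ev, s] using h
        rw [this]
        cases x
        · exact inv_mem (one_mem _)
        · exact inv_mem (subset_closure rfl)
    · refine absurd ?_ c1
      have : c = (s a x * s b y)⁻¹ := by
        rw [eq_inv_iff_mul_eq_one, ← (cm _ (mul_mem (sW a ha _) (sW b hb _)) _ hc).eq]; exact h
      rw [this]
      refine inv_mem (mul_mem ?_ ?_)
      · cases x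
        · exact one_mem _
        · exact ma
      · cases y
        · exact one_mem _
        · exact mb
  have inj : ∀ v w, ev a b c v = ev a b c w → v = w := fun v w h =>
    ad_eq v w (e1 _ (by rw [ea, h, el _ (eW w)]))
  have es : ∀ u v, ev a b c (sm u v) = s (ev a b c v) u := fun u v => by
    cases u
    · exact e0
    · rfl
  have cs1 : ∀ (t x : G) (u : Bool), t * s x u * t⁻¹ = s (t * x * t⁻¹) u := fun t x u => by cases u <;> simp [s]
  have el' : ∀ m v, ev a b c (lin m v) = ev (ev a b c m.1) (ev a b c m.2.1) (ev a b c m.2.2) v := fun m v => by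
    rw [lin, ea, ea, es, es, es]; rfl
  have ce : ∀ (t x y z : G) (v : V), t * ev x y z v * t⁻¹ = ev (t * x * t⁻¹) (t * y * t⁻¹) (t * z * t⁻¹) v :=
    fun t x y z v => by simp only [ev]; rw [cj_mul, cj_mul, cs1, cs1, cs1]
  have v1 : ev a b c (vv 1) = a := by simp [ev, s, vv]
  have v2 : ev a b c (vv 2) = b := by simp [ev, s, vv]
  have v4 : ev a b c (vv 4) = c := by simp [ev, s, vv]
  let P : M → Prop := fun m => ∃ t ∈ A, ∀ v, t * ev a b c v * t⁻¹ = ev a b c (lin m v)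
  have Pm : ∀ m n, P m → P n → P (mu m n) := by
    rintro m n ⟨t, ht, h1⟩ ⟨u, hu, h2⟩
    refine ⟨t * u, mul_mem ht hu, fun v => ?_⟩
    rw [lin_mu, ← h1, ← h2]; group
  have c3 : ∀ m, ∀ t ∈ A, (∀ v, t * ev a b c v * t⁻¹ = ev a b c (lin m v)) → cube m = mm 1 2 4 → t ∈ C(W) := by
    intro m t ht h1 h
    have : ∀ v, t ^ 3 * ev a b c v * (t ^ 3)⁻¹ = ev a b c v := fun v => by
      conv_rhs => rw [← lin_one v, ← h, cube, lin_mu, lin_mu, ← h1, ← h1, ← h1]
      simp only [pow_succ, pow_zero, one_mul]; group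
    exact h3 t ht (r _ (pow_mem ht 3) (by simpa only [v1] using this (vv 1)) (by simpa only [v2] using this (vv 2))
      (by simpa only [v4] using this (vv 4)))
  have P3 : ∀ m, P m → cube m = mm 1 2 4 → m = mm 1 2 4 := by
    rintro m ⟨t, ht, h1⟩ h
    have := c3 m t ht h1 h
    have k : ∀ v, lin m v = v := fun v => inj _ _ (by rw [← h1, conj_of_C this (eW v)])
    obtain ⟨k1, k2, k3⟩ := lin_e m
    rw [k] at k1 k2 k3
    exact Prod.ext k1.symm (Prod.ext k2.symm k3.symm)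
  by_contra hn
  have key : ∀ d ∈ tab, ∃ m ∈ d.2, P m := by
    intro d hd
    by_contra hm
    refine hn ⟨ev a b c '' {x | x ∈ [d.1.1, d.1.2.1, d.1.2.2]}, ?_, fun t ht hD => ?_⟩
    · rintro _ ⟨x, hx, rfl⟩
      exact ⟨eW x, fun h => (spn d hd).2 x hx (e1 _ h)⟩
    obtain ⟨x, -, hx⟩ := hD _ ⟨d.1.1, by simp, rfl⟩
    obtain ⟨y, -, hy⟩ := hD _ ⟨d.1.2.1, by simp, rfl⟩
    obtain ⟨z, -, hz⟩ := hD _ ⟨d.1.2.2, by simp, rfl⟩
    have f : ∀ v, ∃ w, t * ev a b c v * t⁻¹ = ev a b c w := fun v => by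
      obtain ⟨w, rfl⟩ := (spn d hd).1 v
      exact ⟨lin (x, y, z) w, by rw [el', ce, ← hx, ← hy, ← hz, el']⟩
    obtain ⟨x, hx⟩ := f (vv 1)
    obtain ⟨y, hy⟩ := f (vv 2)
    obtain ⟨z, hz⟩ := f (vv 4)
    have h1 : ∀ v, t * ev a b c v * t⁻¹ = ev a b c (lin (x, y, z) v) := fun v => by
      rw [el', ← hx, ← hy, ← hz, v1, v2, v4, ce]
    rcases sel d hd (x, y, z) (fun w hw => by
      obtain ⟨w', hw', e⟩ := hD _ ⟨w, hw, rfl⟩
      rw [h1] at e
      rw [← inj _ _ e]; exact hw') (fun v hv => e1 _ (by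
        have := h1 v
        rw [hv, e0] at this
        simpa using this)) with h | h
    · exact c3 _ t ht h1 h
    · exact absurd ⟨_, h, t, ht, h1⟩ hm
  simp only [tab, List.forall_mem_cons] at key
  obtain ⟨⟨m1, a1, p1⟩, ⟨m2, a2, p2⟩, ⟨m3, a3, p3⟩, ⟨m4, a4, p4⟩, ⟨m5, a5, p5⟩, ⟨m6, a6, p6⟩, -⟩ := key
  obtain ⟨x, hx, y, hy, n1, n2⟩ := fin6 m1 a1 m2 a2 m3 a3 m4 a4 m5 a5 m6 a6
  have pp : ∀ x ∈ [m1, m2, m3, m4, m5, m6], P x := by
    simp only [List.forall_mem_cons]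
    exact ⟨p1, p2, p3, p4, p5, p6, by simp⟩
  exact n1 (P3 _ (Pm _ _ (pp x hx) (pp y hy)) n2)

theorem two2 (aW : Abel W) (el : ∀ x ∈ W, x * x = 1) (h3 : ∀ t ∈ A, t ^ 3 ∈ C(W) → t ∈ C(W)) {a b : G}
    (ha : a ∈ W) (hb : b ∈ W) (a1 : a ≠ 1) (b1 : b ∉ closure {a})
    (r : ∀ t ∈ A, t * a * t⁻¹ = a → t * b * t⁻¹ = b → t ∈ C(W)) : Gd W A := by
  have ma : a ∈ closure ({a} : Set G) := subset_closure rfl
  have b0 : b ≠ 1 := fun h => b1 (h ▸ one_mem _)
  have ba : b * a = a * b := comm_of_cent aW hb ha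
  have ab0 : a * b ≠ 1 := fun h => b1 (by rw [eq_inv_of_mul_eq_one_right h]; exact inv_mem ma)
  have aab : a * (a * b) = b := by rw [← mul_assoc, el a ha, one_mul]
  have aba : a * b * a = b := by rw [mul_assoc, ba, aab]
  have sw : ∀ y ∈ W, y ≠ 1 → (∀ t ∈ A, t * a * t⁻¹ = a → t * y * t⁻¹ = y → t ∈ C(W)) → ¬ Gd W A →
      ∃ t ∈ A, t * a * t⁻¹ = y ∧ t * y * t⁻¹ = a := by
    intro y hy y1 r hn
    by_contra hm
    refine hn ⟨{a, y}, ?_, fun t ht hD => ?_⟩
    · rintro x (rfl | rfl)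
      exacts [⟨ha, a1⟩, ⟨hy, y1⟩]
    rcases hD a (by simp) with h1 | h1 <;> rcases hD y (by simp) with h2 | h2
    · have := cj_inj (h1.trans h2.symm)
      exact r t ht h1 (this ▸ h1)
    · exact r t ht h1 h2
    · exact absurd ⟨t, ht, h1, h2⟩ hm
    · have := cj_inj (h1.trans (Eq.symm h2))
      exact r t ht (this ▸ h1) h2
  by_contra hn
  obtain ⟨t, ht, t1, t2⟩ := sw b hb b0 r hn
  obtain ⟨u, hu, u1, u2⟩ := sw (a * b) (mul_mem ha hb) ab0 (fun t ht h1 h2 => r t ht h1 (by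
    rw [cj_mul, h1] at h2
    exact mul_left_cancel h2)) hn
  have k : ∀ x, t * u * x * (t * u)⁻¹ = t * (u * x * u⁻¹) * t⁻¹ := fun x => by group
  have k1 : t * u * a * (t * u)⁻¹ = a * b := by rw [k, u1, cj_mul, t1, t2, ba]
  have k2 : t * u * b * (t * u)⁻¹ = a := by
    rw [k, ← t2]
    congr 2
    conv_lhs => rw [← aab, cj_mul, u1, u2, aba]
  have k3 : t * u * (a * b) * (t * u)⁻¹ = b := by rw [cj_mul, k1, k2, aba]
  have k4 : ∀ x, (t * u) ^ 3 * x * ((t * u) ^ 3)⁻¹ =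
      t * u * (t * u * (t * u * x * (t * u)⁻¹) * (t * u)⁻¹) * (t * u)⁻¹ := fun x => by
    generalize t * u = v
    simp only [pow_succ, pow_zero, one_mul]; group
  have := h3 _ (mul_mem ht hu) (r _ (pow_mem (mul_mem ht hu) 3) (by rw [k4, k1, k3, k2]) (by rw [k4, k2, k1, k3]))
  rw [conj_of_C this ha] at k1
  exact b0 (by simpa using k1)

theorem one1 {a : G} (ha : a ∈ W) (r : ∀ t ∈ A, t * a * t⁻¹ = a → t ∈ C(W)) : Gd W A := by
  by_cases a1 : a = 1
  · exact ⟨∅, by simp, fun t ht _ => r t ht (by simp [a1])⟩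
  · refine ⟨{a}, ?_, fun t ht hD => r t ht (hD a rfl)⟩
    rintro x rfl
    exact ⟨ha, a1⟩

/-- a small power of an element lying in `X` -/
theorem mem_of_pow {q : ℕ} (hq : q.Prime) (h5 : 5 ≤ q) {X : Subgroup G} {c : G} (hc : c ^ q = 1) {k : ℤ}
    (h : c ^ k ∈ X) (k0 : k ≠ 0) (k1 : k.natAbs < 5) : c ∈ X := by
  have h1 : c ^ k.natAbs ∈ X := by
    rcases Int.natAbs_eq k with e | e
    · rw [← zpow_natCast, ← e]; exact h
    · have := inv_mem h
      rw [← zpow_neg, e, neg_neg, zpow_natCast] at this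
      exact this
  have cp : (k.natAbs).Coprime (orderOf c) :=
    Nat.Coprime.coprime_dvd_right (orderOf_dvd_of_pow_eq_one hc)
      (Nat.coprime_of_lt_prime (by omega) (by omega) hq).symm
  obtain ⟨m, e⟩ := exists_pow_eq_self_of_coprime cp
  exact e ▸ pow_mem h1 m

theorem big {q : ℕ} (hq : q.Prime) (h5 : 5 ≤ q) (aW : Abel W) (el : ∀ x ∈ W, x ^ q = 1) {a b c : G}
    (ha : a ∈ W) (hb : b ∈ W) (hc : c ∈ W) (a1 : a ≠ 1) (b1 : b ∉ closure {a})
    (c1 : c ∉ closure {a, b} ∨ c = 1) (r : R3 W A a b c) : Gd W A := by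
  let e : ℕ × ℕ × ℕ → G := fun v => a ^ v.1 * b ^ v.2.1 * c ^ v.2.2
  have cm : ∀ x ∈ W, ∀ y ∈ W, Commute x y := fun x hx y hy => comm_of_cent aW hx hy
  have eW : ∀ v, e v ∈ W := fun v => mul_mem (mul_mem (pow_mem ha _) (pow_mem hb _)) (pow_mem hc _)
  have ea : ∀ v w, e (v + w) = e v * e w := fun v w => by
    simp only [e, Prod.fst_add, Prod.snd_add, pow_add]
    rw [(cm _ (pow_mem ha _) _ (pow_mem hb _)).mul_mul_mul_comm,
      (cm _ (mul_mem (pow_mem ha _) (pow_mem hb _)) _ (pow_mem hc _)).mul_mul_mul_comm]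
  have ma : a ∈ closure ({a, b} : Set G) := subset_closure (by simp)
  have mb : b ∈ closure ({a, b} : Set G) := subset_closure (by simp)
  have i2 : ∀ i j i' j' : ℕ, i < 5 → j < 5 → i' < 5 → j' < 5 → a ^ i * b ^ j = a ^ i' * b ^ j' → i = i' ∧ j = j' := by
    intro i j i' j' h1 h2 h3 h4 h
    have : j = j' := by
      by_contra ne
      refine b1 (mem_of_pow hq h5 (el b hb) (k := (j : ℤ) - j') ?_ (by omega) (by omega))
      have : b ^ ((j : ℤ) - j') = (a ^ i)⁻¹ * a ^ i' := by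
        rw [zpow_sub, zpow_natCast, zpow_natCast, eq_inv_mul_iff_mul_eq, ← mul_assoc, h, mul_inv_cancel_right]
      rw [this]
      have m0 : a ∈ closure ({a} : Set G) := subset_closure (Set.mem_singleton a)
      exact mul_mem (inv_mem (pow_mem m0 _)) (pow_mem m0 _)
    subst this
    refine ⟨?_, rfl⟩
    by_contra ne
    refine a1 (mem_bot.1 (mem_of_pow hq h5 (el a ha) (k := (i : ℤ) - i') ?_ (by omega) (by omega)))
    rw [zpow_sub, zpow_natCast, zpow_natCast, mul_right_cancel h, mul_inv_cancel]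
    exact one_mem _
  have inj : ∀ v w : ℕ × ℕ × ℕ, v.1 < 5 ∧ v.2.1 < 5 ∧ v.2.2 < 5 → w.1 < 5 ∧ w.2.1 < 5 ∧ w.2.2 < 5 →
      (c = 1 → v.2.2 = w.2.2) → e v = e w → v = w := by
    rintro ⟨i, j, k⟩ ⟨i', j', k'⟩ ⟨h1, h2, h3⟩ ⟨h4, h6, h7⟩ h8 h
    simp only [e] at h h1 h2 h3 h4 h6 h7 h8
    have : k = k' := by
      rcases c1 with c1 | c1
      swap
      · exact h8 c1
      by_contra ne
      refine c1 (mem_of_pow hq h5 (el c hc) (k := (k : ℤ) - k') ?_ (by omega) (by omega))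
      have : c ^ ((k : ℤ) - k') = (a ^ i * b ^ j)⁻¹ * (a ^ i' * b ^ j') := by
        rw [zpow_sub, zpow_natCast, zpow_natCast, eq_inv_mul_iff_mul_eq, ← mul_assoc, h, mul_inv_cancel_right]
      rw [this]
      exact mul_mem (inv_mem (mul_mem (pow_mem ma _) (pow_mem mb _))) (mul_mem (pow_mem ma _) (pow_mem mb _))
    subst this
    obtain ⟨rfl, rfl⟩ := i2 i j i' j' h1 h2 h4 h6 (mul_right_cancel h)
    rfl
  have v1 : e (1, 0, 0) = a := by simp [e]
  have v2 : e (0, 1, 0) = b := by simp [e]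
  have v3 : e (0, 0, 1) = c := by simp [e]
  have v0 : e (0, 0, 0) = 1 := by simp [e]
  have main : ∀ S : List (ℕ × ℕ × ℕ), (∀ v ∈ S, (v.1 < 3 ∧ v.2.1 < 3 ∧ v.2.2 < 3) ∧ v ≠ (0, 0, 0)) →
      (c = 1 → ∀ v ∈ S, v.2.2 = 0) → (1, 0, 0) ∈ S → (2, 0, 0) ∈ S → (0, 1, 0) ∈ S → (1, 1, 0) ∈ S →
      (c ≠ 1 → (0, 0, 1) ∈ S) →
      (∀ x ∈ S, ∀ y ∈ S, x + x ∈ S → x + y ∈ S → x ≠ y → x = (1, 0, 0) ∧ y = (0, 1, 0)) →
      (∀ z ∈ S, z ∈ [(1, 0, 0), (2, 0, 0), (0, 1, 0), (1, 1, 0), (0, 0, 1)]) → Gd W A := by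
    intro S hS h0 s1 s2 s3 s4 s5 k1 k2
    have lt : ∀ v ∈ S, v.1 < 5 ∧ v.2.1 < 5 ∧ v.2.2 < 5 := fun v hv => by have := (hS v hv).1; omega
    have lt2 : ∀ v ∈ S, ∀ w ∈ S, (v + w).1 < 5 ∧ (v + w).2.1 < 5 ∧ (v + w).2.2 < 5 := fun v hv w hw => by
      have := (hS v hv).1
      have := (hS w hw).1
      simp only [Prod.fst_add, Prod.snd_add]; omega
    have z2 : ∀ v ∈ S, ∀ w ∈ S, ∀ u ∈ S, c = 1 → (v + w).2.2 = u.2.2 := fun v hv w hw u hu h => by
      simp only [Prod.snd_add, h0 h v hv, h0 h w hw, h0 h u hu]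
    refine ⟨e '' {v | v ∈ S}, ?_, fun t ht hD => ?_⟩
    · rintro _ ⟨v, hv, rfl⟩
      exact ⟨eW v, fun h => (hS v hv).2 (inj _ _ (lt v hv) (by simp) (fun h => h0 h v hv) (h.trans v0.symm))⟩
    obtain ⟨x, hx, ex⟩ := hD _ ⟨_, s1, rfl⟩
    obtain ⟨y, hy, ey⟩ := hD _ ⟨_, s3, rfl⟩
    obtain ⟨x2, hx2, ex2⟩ := hD _ ⟨_, s2, rfl⟩
    obtain ⟨y2, hy2, ey2⟩ := hD _ ⟨_, s4, rfl⟩
    have f1 : e (2, 0, 0) = e (1, 0, 0) * e (1, 0, 0) := ea (1, 0, 0) (1, 0, 0)
    have f2 : e (1, 1, 0) = e (1, 0, 0) * e (0, 1, 0) := ea (1, 0, 0) (0, 1, 0)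
    have g1 : x + x = x2 := inj _ _ (lt2 x hx x hx) (lt _ hx2) (z2 x hx x hx _ hx2)
      (by rw [ea, ex2, f1, cj_mul, ex])
    have g2 : x + y = y2 := inj _ _ (lt2 x hx y hy) (lt _ hy2) (z2 x hx y hy _ hy2)
      (by rw [ea, ey2, f2, cj_mul, ex, ey])
    obtain ⟨rfl, rfl⟩ := k1 x hx y hy (g1 ▸ hx2) (g2 ▸ hy2) (fun h => by
      have := inj _ _ (lt _ s1) (lt _ s3) (fun _ => rfl) (cj_inj (ex.symm.trans (h ▸ ey)))
      simp at this)
    refine r t ht (by rw [← v1, ← ex]) (by rw [← v2, ← ey]) ?_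
    by_cases c0 : c = 1
    · simp [c0]
    obtain ⟨z, hz, ez⟩ := hD _ ⟨_, s5 c0, rfl⟩
    have nz : ∀ w ∈ S, t * e w * t⁻¹ = e w → z = w → w = (0, 0, 1) := fun w hw h1 h2 =>
      inj _ _ (lt _ hw) (by simp) (fun h => absurd h c0) (cj_inj (h1.trans (h2 ▸ ez)))
    have := k2 z hz
    simp only [List.mem_cons, List.not_mem_nil, or_false] at this
    rcases this with h | h | h | h | h
    · simpa using nz _ s1 ex.symm h
    · simpa using nz _ s2 (by rw [f1, cj_mul, ← ex]) h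
    · simpa using nz _ s3 ey.symm h
    · simpa using nz _ s4 (by rw [f2, cj_mul, ← ex, ← ey]) h
    · rw [← v3, ← ez, h]
  by_cases c0 : c = 1
  · exact main [(1, 0, 0), (2, 0, 0), (0, 1, 0), (1, 1, 0)] (by decide) (fun _ => by decide) (by decide) (by decide)
      (by decide) (by decide) (fun h => absurd c0 h) (by decide) (by decide)
  · exact main [(1, 0, 0), (2, 0, 0), (0, 1, 0), (1, 1, 0), (0, 0, 1)] (by decide) (fun h => absurd h c0) (by decide)
      (by decide) (by decide) (by decide) (fun _ => by decide) (by decide) (by decide)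

theorem core {q : ℕ} (hq : q.Prime) (q3 : q ≠ 3) (aW : Abel W) (el : ∀ x ∈ W, x ^ q = 1)
    (h3 : ∀ t ∈ A, t ^ 3 ∈ C(W) → t ∈ C(W)) {a b c : G} (ha : a ∈ W) (hb : b ∈ W) (hc : c ∈ W)
    (r : R3 W A a b c) : Gd W A := by
  have h25 : q = 2 ∨ 5 ≤ q := by
    by_contra h
    have h2 := hq.two_le
    have : q = 4 := by omega
    subst this
    exact absurd hq (by decide)
  have r2 : ∀ a ∈ W, ∀ b ∈ W, (∀ t ∈ A, t * a * t⁻¹ = a → t * b * t⁻¹ = b → t ∈ C(W)) → Gd W A := by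
    intro a ha b hb r
    by_cases b1 : b ∈ closure ({a} : Set G)
    · exact one1 ha fun t ht h => r t ht h (fix_cl (by rintro _ rfl; exact h) b1)
    by_cases a1 : a = 1
    · exact one1 hb fun t ht h => r t ht (by simp [a1]) h
    rcases h25 with rfl | h5
    · exact two2 aW (fun x hx => by rw [← sq, el x hx]) h3 ha hb a1 b1 r
    · exact big hq h5 aW el ha hb (one_mem _) a1 b1 (Or.inr rfl) fun t ht h1 h2 _ => r t ht h1 h2
  by_cases c1 : c ∈ closure ({a, b} : Set G)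
  · exact r2 a ha b hb fun t ht h1 h2 => r t ht h1 h2 (fix_cl (by rintro _ (rfl | rfl); exacts [h1, h2]) c1)
  by_cases b1 : b ∈ closure ({a} : Set G)
  · exact r2 a ha c hc fun t ht h1 h2 => r t ht h1 (fix_cl (by rintro _ rfl; exact h1) b1) h2
  by_cases a1 : a = 1
  · exact r2 b hb c hc fun t ht h1 h2 => r t ht (by simp [a1]) h1 h2
  rcases h25 with rfl | h5
  · exact two3 aW (fun x hx => by rw [← sq, el x hx]) h3 ha hb hc a1 b1 c1 r
  · exact big hq h5 aW el ha hb hc a1 b1 (Or.inl c1) r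

theorem gluck30 {L : Type*} [Group L] [Finite L] {H : Subgroup L} (hs : Group.IsSolvable L) (hH : IsCoatom H)
    (hc : H.normalCore = ⊥) (n3 : ¬ 3 ∣ Nat.card L) :
    ∃ c : L → Fin 3, (∀ g, ∀ h ∈ H, c (g * h) = c g) ∧ ∀ t, (∀ g, c (t * g) = c g) → t = 1 := by
  classical
  have core0 : ∀ X : Subgroup L, X ≤ H → ⊤ ≤ N(X) → X = ⊥ := fun X h1 h2 => by
    haveI := norm_top_iff.1 h2
    exact eq_bot_iff.2 (hc ▸ normal_le_normalCore.2 h1)
  obtain ⟨W, -, hW⟩ := exists_minNorm (K := ⊤) (A := (⊤ : Subgroup L))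
    (fun e => hH.1 (top_unique (e ▸ bot_le))) (by simp)
  have aW : Abel W := hW.abel solv_of_solv
  have nW : H ≤ N(W) := le_top.trans hW.norm
  have hs : H ⊔ W = ⊤ := hH.2 _ (left_lt_sup.2 fun e => hW.ne_bot (core0 W e hW.norm))
  have hi : W ⊓ H = ⊥ := core0 _ inf_le_right (hs ▸ sup_le (norm_inf nW le_N) (aW.norm inf_le_left))
  have fa : H ⊓ C(W) = ⊥ := core0 _ inf_le_left
    (hs ▸ sup_le (norm_inf le_N (norm_C nW)) (cent_norm (cent_symm inf_le_right)))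
  have : ∀ g : L, ∃ w ∈ W, w⁻¹ * g ∈ H := fun g => by
    obtain ⟨τ, hτ, h, hh, rfl⟩ := (mem_sup_of_norm' nW).1 (show g ∈ W ⊔ H by rw [sup_comm, hs]; trivial)
    exact ⟨τ, hτ, by simpa using hh⟩
  choose w hw hw' using this
  have un : ∀ g, ∀ x ∈ W, x⁻¹ * g ∈ H → w g = x := fun g x hx h => by
    have : x⁻¹ * w g = 1 := eq_one_of_eq_bot hi (mem_inf.2 ⟨mul_mem (inv_mem hx) (hw g), by
      have := mul_mem h (inv_mem (hw' g))
      convert this using 1
      group⟩)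
    exact (inv_mul_eq_one.1 this).symm
  have cr : CR W H := fun U hU hn => by
    rcases hW.eq_bot_or hU (hs ▸ sup_le hn (aW.norm hU)) with rfl | rfl
    · exact ⟨W, le_rfl, nW, bot_inf_eq _, bot_sup_eq _⟩
    · exact ⟨⊥, bot_le, by simp, inf_bot_eq _, sup_bot_eq _⟩
  obtain ⟨p, hp, rp⟩ := main3 W H aW nW solv_of_solv cr
  obtain ⟨q, hq, dq, eq⟩ := hW.exists_elem solv_of_solv
  obtain ⟨D, d1, d2⟩ := core (A := H) hq (fun e => n3 (e ▸ dq.trans (card_subgroup_dvd_card W))) aW eq.2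
    (fun t _ h => by
      obtain ⟨m, e⟩ := exists_pow_eq_self_of_coprime (x := t) (n := 3)
        ((Nat.prime_three.coprime_iff_not_dvd).2 fun h => n3 (h.trans (orderOf_dvd_natCard t)))
      exact e ▸ pow_mem h m) (hp 0) (hp 1) (hp 2) fun t ht h0 h1 h2 => rp t ht fun i => by
        fin_cases i
        exacts [h0, h1, h2]
  refine ⟨fun g => if w g = 1 then 0 else if w g ∈ D then 1 else 2, fun g h hh => ?_, fun t ht => ?_⟩
  · simp only [un (g * h) (w g) (hw g) (by rw [← mul_assoc]; exact mul_mem (hw' g) hh)]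
  have wx : ∀ x ∈ W, w x = x := fun x hx => un x x hx (by simp)
  have tH : t ∈ H := by
    have := ht 1
    simp only [mul_one, wx 1 (one_mem _), if_true] at this
    split_ifs at this with e
    · simpa [e] using hw' t
    all_goals exact absurd this (by decide)
  refine eq_one_of_eq_bot fa ⟨tH, d2 t tH fun x xD => ?_⟩
  obtain ⟨hx, x1⟩ := d1 x xD
  have := ht x
  simp only [wx x hx, un (t * x) _ (conj_mem nW tH hx) (by simpa [mul_assoc] using tH), if_neg x1,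
    if_neg (conj_eq_one_iff'.not.2 x1), if_pos xD] at this
  by_contra e
  rw [if_neg e] at this
  exact absurd this (by decide)

theorem gluck3 : H8.Bs.Gluck3.{u} := by
  intro L _ _ H hs hH n3
  let π := QuotientGroup.mk' H.normalCore
  have hπ : Function.Surjective π := QuotientGroup.mk'_surjective _
  have kπ : π.ker ≤ H := by rw [QuotientGroup.ker_mk']; exact H.normalCore_le
  have cm : (H.map π).comap π = H := comap_map_eq_self kπ
  obtain ⟨c, h1, h2⟩ := gluck30 (H := H.map π) inferInstance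
    ⟨fun e => hH.1 (by rw [← cm, e, comap_top]), fun X hX => by
      have := hH.2 (X.comap π) (cm.ge.trans_lt ((comap_lt_comap_of_surjective hπ).2 hX))
      rw [← map_comap_eq_self_of_surjective hπ X, this, map_top_of_surjective _ hπ]⟩
    (by
      have : ((H.map π).normalCore).comap π ≤ H.normalCore :=
        normal_le_normalCore.2 ((comap_mono (normalCore_le _)).trans cm.le)
      rw [← map_comap_eq_self_of_surjective hπ (H.map π).normalCore, Subgroup.map_eq_bot_iff, QuotientGroup.ker_mk']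
      exact this)
    (fun h => n3 (h.trans (card_quotient_dvd_card _)))
  have key : ∀ g : L, c (π (g : L ⧸ H).out) = c (π g) := fun g => by
    obtain ⟨h, e⟩ := QuotientGroup.mk_out_eq_mul H g
    rw [e, map_mul, h1 _ _ (mem_map_of_mem π h.2)]
  refine ⟨fun ω => c (π ω.out), fun t ht ω => ?_⟩
  have t1 : π t = 1 := h2 _ fun g => by
    obtain ⟨g, rfl⟩ := hπ g
    rw [← map_mul, ← key, ← key g]
    exact ht g
  have t2 : t ∈ H.normalCore := by rwa [← QuotientGroup.ker_mk' H.normalCore]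
  rw [normalCore_eq_ker] at t2
  exact Equiv.congr_fun t2 ω

end H326.BsG
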