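import Cfsg.Agent.H26.Qw0
import Cfsg.Agent.H26.Jt4

/-! S1829, piece `P2`: two classes of involutions. -/

set_option autoImplicit false
set_option synthInstance.maxSize 4000

namespace H326.Qw
open Subgroup DihedralGroup
universe u

/-- parity in `D₈ / V` -/
def pv (d : D) : Bool := !mD 2 d
theorem pv_mul : ∀ x y, pv (x * y) = xor (pv x) (pv y) := by decide
def par (t : TT) : Bool := xor (xor (pv t.a) (pv t.b)) t.e
theorem par_mul (x y : TT) : par (x * y) = xor (par x) (par y) := by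
  obtain ⟨a, b, _ | _⟩ := x <;> obtain ⟨c, d, e⟩ := y <;> simp only [mul_def, par, pv_mul, if_true, if_false,
    Bool.false_eq_true] <;> cases pv a <;> cases pv b <;> cases pv c <;> cases pv d <;> cases e <;> rfl

def T1 : Subgroup TT where
  carrier := {t | par t = false}
  one_mem' := by decide
  mul_mem' := fun {a b} ha hb => by
    simp only [Set.mem_setOf_eq] at ha hb ⊢
    rw [par_mul, ha, hb]; rfl
  inv_mem' := fun {a} ha => by
    simp only [Set.mem_setOf_eq] at ha ⊢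
    have := par_mul a⁻¹ a
    rw [inv_mul_cancel, ha] at this
    revert this
    cases par a⁻¹ <;> decide

theorem card_sub (H : Subgroup TT) (p : TT → Prop) [DecidablePred p] (h : ∀ t, t ∈ H ↔ p t) :
    Nat.card H = (Finset.univ.filter p).card := by
  rw [← Fintype.card_subtype, ← Nat.card_eq_fintype_card]
  exact Nat.card_congr (Equiv.subtypeEquivRight h)

theorem card_T1 : Nat.card T1 = 64 := (card_sub T1 (fun t => par t = false) fun _ => Iff.rfl).trans (by decide +kernel)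
theorem card_J : Nat.card J = 64 := (card_sub J (fun t => t ∈ J) fun _ => Iff.rfl).trans (by decide +kernel)
theorem card_Ce : Nat.card (centralizer {u1 * u2} : Subgroup TT) = 32 :=
  (card_sub _ (fun t => t * (u1 * u2) = u1 * u2 * t) fun _ => mem_centralizer_singleton_iff).trans (by decide +kernel)
theorem t1_cl : ∀ t : TT, par t = false → t * t = 1 → t ≠ 1 →
    ∃ y ∈ [1, s, v1, v2, v1 * v2, u1, u2, u1 * u2, s * u1, s * u2, u2 * s, u1 * s],
      y * t * y⁻¹ ∈ [z1, v1, z, v1 * z2, v1 * v2, u1 * u2] := by decide +kernel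
theorem nB : ∀ y : TT, ∀ t ∈ B, y * t * y⁻¹ ∈ B := by decide +kernel
theorem b_cl : ∀ t ∈ B, t ∈ Z ∨ ∃ y ∈ [1, s, v1, v2, v1 * v2, s * v1, s * v2, s * v1 * v2],
    y * u1 * y⁻¹ = t ∨ y * (u1 * z2) * y⁻¹ = t ∨ y * (u1 * u2) * y⁻¹ = t := by decide +kernel
theorem z_cl : ∀ t ∈ Z, t = 1 ∨ t = z1 ∨ t = s * z1 * s⁻¹ ∨ t = z := by decide +kernel
theorem jB : ∀ j ∈ J, ∀ t ∈ B, t⁻¹ * (j * t * j⁻¹) ∈ Z := by decide +kernel
theorem jZ : ∀ j ∈ J, ∀ t ∈ Z, j * t = t * j := by decide +kernel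
theorem tu : ∀ y : TT, (u1 * u2)⁻¹ * (y * u1 * y⁻¹) ∉ Z := by decide +kernel
theorem te : ∀ y : TT, (u1 * u2)⁻¹ * (y * (u1 * u2) * y⁻¹) ∈ Z := by decide +kernel
theorem ZB : ∀ w ∈ Z, w ∈ B := by decide +kernel
theorem ez : ∀ w ∈ Z, ∃ y ∈ [1, v1, v2, v1 * v2], y * (u1 * u2) * y⁻¹ = u1 * u2 * w := by decide +kernel

variable {G : Type u} [Group G] [Finite G] {ψ : TT →* G} {x : G}

theorem cj_T (y t : TT) : Cj ψ t (y * t * y⁻¹) := isConj_iff.2 ⟨ψ y, by simp⟩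
theorem Cj.symm' {t t' : TT} (h : Cj ψ t t') : Cj ψ t' t := IsConj.symm h
theorem Cj.trans' {t t' t'' : TT} (h : Cj ψ t t') (h' : Cj ψ t' t'') : Cj ψ t t'' := IsConj.trans h h'
theorem mp_iff {X : Subgroup TT} {g : G} : Mp ψ X X g ↔ g ∈ normalizer ((X.map ψ : Subgroup G) : Set G) := by
  constructor
  · intro h
    refine H326.Jt.norm_of ?_
    rintro _ ⟨t, ht, rfl⟩
    obtain ⟨t', h1, h2⟩ := h t ht
    exact ⟨t', h1, h2.symm⟩
  · intro h t ht
    obtain ⟨t', h1, h2⟩ := (mem_normalizer_iff.1 h (ψ t)).1 ⟨t, ht, rfl⟩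
    exact ⟨t', h1, h2.symm⟩
theorem Mp.inv {X : Subgroup TT} {g : G} (h : Mp ψ X X g) : Mp ψ X X g⁻¹ := mp_iff.2 (inv_mem (mp_iff.1 h))

theorem three (c : Cf ψ x) (t : TT) (tt : t * t = 1) (t1 : t ≠ 1) :
    Cj ψ t z1 ∨ Cj ψ t z ∨ Cj ψ t (u1 * u2) := by
  have k1 : Cj ψ v1 z1 := IsConj.symm (isConj_iff.2 ⟨x, c.xz⟩)
  have kk : ∀ w ∈ Pr 0 4, Cj ψ (v1 * w) (z1 * w) := fun w hw => IsConj.symm (isConj_iff.2 ⟨x, by
    rw [map_mul, map_mul, ← c.xz, mul_assoc x, mul_assoc _ x⁻¹, (c.xD w hw).inv_left.eq]; group⟩)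
  have k2 : Cj ψ (v1 * z2) z := kk z2 (by decide)
  have k3 : Cj ψ (v1 * v2) z := (kk v2 (by decide)).trans' ((cj_T s _).trans' k2)
  have main : ∀ t : TT, par t = false → t * t = 1 → t ≠ 1 → Cj ψ t z1 ∨ Cj ψ t z ∨ Cj ψ t (u1 * u2) := by
    intro t h1 h2 h3
    obtain ⟨y, -, hy⟩ := t1_cl t h1 h2 h3
    have := cj_T (ψ := ψ) y t
    simp only [List.mem_cons, List.not_mem_nil, or_false] at hy
    rcases hy with h | h | h | h | h | h <;> rw [h] at this
    exacts [.inl this, .inl (this.trans' k1), .inr (.inl this), .inr (.inl (this.trans' k2)),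
      .inr (.inl (this.trans' k3)), .inr (.inr this)]
  by_contra hn
  refine H326.Jt.tr0 c.no2 (t := ψ t) (by rw [← map_mul, tt, map_one]) (S := ψ.range) (M := T1.map ψ)
    (by have := c.syl; omega) ?_ ?_
  · rw [card_map_of_injective c.inj, card_T1, MonoidHom.range_eq_map, card_map_of_injective c.inj, card_top, card_TT]
  rintro _ ⟨t', ht', rfl⟩ h
  obtain ⟨g, hg⟩ := isConj_iff.1 h
  have h' : Cj ψ t t' := h
  refine hn ((main t' ht' (c.inj ?_) fun e => t1 (c.inj ?_)).imp h'.trans' (Or.imp h'.trans' h'.trans'))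
  · rw [map_mul, ← hg, conj_mul, ← map_mul, tt]; simp
  · rw [e, map_one, conj_eq_one_iff] at hg
    rw [hg, map_one]

theorem noZ (c : Cf ψ x) (f : Fu ψ) (h : ∀ g, Mp ψ B B g → Mp ψ Z Z g) : False := by
  have nz : ∀ w ∈ Z, ¬ Cj ψ u1 w := fun w hw hc => by
    obtain ⟨g, g1, g2⟩ := f.cB u1 (by decide) w (ZB w hw) hc
    obtain ⟨w', h1, h2⟩ := h _ g1.inv w hw
    rw [← g2] at h2
    have : u1 = w' := c.inj (by rw [← h2]; group)
    exact absurd (this ▸ h1) (by decide)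
  have he : Cj ψ u1 (u1 * u2) :=
    ((three c u1 (by decide) (by decide)).resolve_left (nz _ (by decide))).resolve_left (nz _ (by decide))
  obtain ⟨g, g1, g2⟩ := f.cB u1 (by decide) _ (by decide) he
  let Q : Subgroup G :=
    { carrier := {n | (∀ w ∈ Z, Commute n (ψ w)) ∧ ∀ t ∈ B, ∃ w ∈ Z, n * ψ t * n⁻¹ = ψ t * ψ w}
      one_mem' := ⟨fun _ _ => Commute.one_left _, fun t _ => ⟨1, one_mem _, by simp⟩⟩
      mul_mem' := by
        rintro n m ⟨n1, n2⟩ ⟨m1, m2⟩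
        refine ⟨fun w hw => (n1 w hw).mul_left (m1 w hw), fun t ht => ?_⟩
        obtain ⟨w, hw, e⟩ := m2 t ht
        obtain ⟨w', hw', e'⟩ := n2 t ht
        refine ⟨w' * w, mul_mem hw' hw, ?_⟩
        calc n * m * ψ t * (n * m)⁻¹ = n * (m * ψ t * m⁻¹) * n⁻¹ := by group
          _ = n * ψ t * n⁻¹ * (n * ψ w * n⁻¹) := by rw [e]; group
          _ = _ := by rw [e', (n1 w hw).eq, map_mul]; group
      inv_mem' := by
        rintro n ⟨n1, n2⟩
        refine ⟨fun w hw => (n1 w hw).inv_left, fun t ht => ?_⟩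
        obtain ⟨w, hw, e⟩ := n2 t ht
        refine ⟨w⁻¹, inv_mem hw, ?_⟩
        calc n⁻¹ * ψ t * n⁻¹⁻¹ = n⁻¹ * (ψ t * ψ w) * ((ψ w)⁻¹ * n) := by group
          _ = ψ t * (n⁻¹ * ((ψ w)⁻¹ * n)) := by rw [← e]; group
          _ = _ := by rw [← (n1 w hw).inv_right.eq, map_inv]; group }
  have JQ : ∀ j ∈ J, ψ j ∈ Q := fun j hj =>
    ⟨fun w hw => by rw [Commute, SemiconjBy, ← map_mul, jZ j hj w hw, map_mul],
      fun t ht => ⟨_, jB j hj t ht, by simp [mul_assoc]⟩⟩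
  have JQ' : ∀ j ∈ J, g * ψ j * g⁻¹ ∈ Q := fun j hj => by
    refine ⟨fun w hw => ?_, fun t ht => ?_⟩
    · obtain ⟨w', h1, h2⟩ := h _ g1.inv w hw
      have e : ψ w = g * ψ w' * g⁻¹ := by rw [← h2]; group
      rw [e, Commute, SemiconjBy, conj_mul, conj_mul, ((JQ j hj).1 w' h1).eq]
    · obtain ⟨t', h1, h2⟩ := g1.inv t ht
      have e : ψ t = g * ψ t' * g⁻¹ := by rw [← h2]; group
      obtain ⟨w, hw, e1⟩ := (JQ j hj).2 t' h1
      obtain ⟨w', hw', e2⟩ := h _ g1 w hw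
      refine ⟨w', hw', ?_⟩
      calc _ = g * (ψ j * ψ t' * (ψ j)⁻¹) * g⁻¹ := by rw [e]; group
        _ = _ := by rw [e1, e, ← e2]; group
  have pT : IsPGroup 2 TT := IsPGroup.of_card (n := 7) card_TT
  have le1 : J.map ψ ≤ Q := by rintro _ ⟨j, hj, rfl⟩; exact JQ j hj
  have le2 : Q ≤ centralizer {ψ z1} := fun n hn => mem_centralizer_singleton_iff.2 (hn.1 z1 (by decide)).eq
  obtain ⟨q, hq, e⟩ := H326.Jt.syl (K := Q) (P := J.map ψ) (Q := J.map ((MulAut.conj g).toMonoidHom.comp ψ)) le1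
    (by rintro _ ⟨j, hj, rfl⟩; exact JQ' j hj) ((pT.to_subgroup _).map _) ((pT.to_subgroup _).map _)
    (m := (J.map ψ).relIndex Q) (by
      have := f.sJ
      rw [← relIndex_mul_relIndex _ _ _ le1 le2] at this
      have : ¬ 2 ∣ (J.map ψ).relIndex Q := fun h => this (h.mul_right _)
      omega) (by
      rw [relIndex, ← (((J.map ψ).subgroupOf Q)).card_mul_index, Nat.card_congr (subgroupOfEquivOfLe le1).toEquiv])
  obtain ⟨y, hy⟩ := f.nJ (q * g) fun j hj => by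
    obtain ⟨j', h1, h2⟩ := e (g * ψ j * g⁻¹) ⟨j, hj, rfl⟩
    exact ⟨j', h1, by rw [h2]; group⟩
  obtain ⟨w, hw, e1⟩ := hq.2 (u1 * u2) (by decide)
  refine tu y ?_
  have : y * u1 * y⁻¹ = u1 * u2 * w := c.inj (by
    rw [map_mul, map_mul, map_inv, hy, map_mul, ← e1, ← g2]; group)
  rw [this, inv_mul_cancel_left]; exact hw

theorem orb8 (c : Cf ψ x) (f : Fu ψ) (S : Finset TT) (hS : S.card = 8) (h1 : ∀ t ∈ S, t ∈ B ∧ Cj ψ (u1 * u2) t)
    (h2 : ∀ t ∈ B, Cj ψ (u1 * u2) t → t ∈ S) : False := by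
  let N : Subgroup G := normalizer ((B.map ψ : Subgroup G) : Set G)
  letI : MulAction N G := MulAction.compHom G ((MulAut.conj (G := G)).comp N.subtype)
  have sm : ∀ (n : N) (y : G), n • y = n * y * (n : G)⁻¹ := fun _ _ => rfl
  have o : MulAction.orbit N (ψ (u1 * u2)) = ψ '' S := by
    ext y
    constructor
    · rintro ⟨n, rfl⟩
      obtain ⟨t, ht, e⟩ := mp_iff.2 n.2 (u1 * u2) (by decide)
      exact ⟨t, h2 t ht (isConj_iff.2 ⟨n, e⟩), e.symm⟩
    · rintro ⟨t, ht, rfl⟩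
      obtain ⟨g, g1, g2⟩ := f.cB _ (by decide) t (h1 t ht).1 (h1 t ht).2
      exact ⟨⟨g, mp_iff.1 g1⟩, g2⟩
  have i8 : (MulAction.stabilizer N (ψ (u1 * u2))).index = 8 := by
    rw [MulAction.index_stabilizer, o, Set.ncard_image_of_injective _ c.inj, Set.ncard_coe_finset, hS]
  have le : (centralizer {u1 * u2} : Subgroup TT).map ψ ≤ (MulAction.stabilizer N (ψ (u1 * u2))).map N.subtype := by
    rintro _ ⟨y, hy, rfl⟩
    refine ⟨⟨ψ y, mp_iff.1 fun t ht => ⟨_, nB y t ht, by simp⟩⟩, ?_, rfl⟩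
    show ψ y * ψ (u1 * u2) * (ψ y)⁻¹ = _
    rw [← map_mul, mem_centralizer_singleton_iff.1 hy, map_mul, mul_inv_cancel_right]
  have d1 := card_dvd_of_le le
  rw [card_map_of_injective c.inj, card_Ce, card_map_of_injective N.subtype_injective] at d1
  have d2 := (MulAction.stabilizer N (ψ (u1 * u2))).card_mul_index
  have d3 := card_subgroup_dvd_card N
  have d4 := ψ.range.card_mul_index
  rw [MonoidHom.range_eq_map, card_map_of_injective c.inj, card_top, card_TT, ← MonoidHom.range_eq_map] at d4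
  rw [← d2, i8, ← d4] at d3
  have := c.syl
  obtain ⟨a, ha⟩ := d1
  obtain ⟨b, hb⟩ := d3
  rw [ha] at hb
  have : 128 * ψ.range.index = 128 * (2 * (a * b)) := by rw [hb]; ring
  omega

theorem p2 : P2.{u} := by
  intro G _ _ ψ x c f t tt t1
  by_contra hn
  have he := ((three c t tt t1).resolve_left fun h => hn (.inl h)).resolve_left fun h => hn (.inr h)
  have n1 : ¬ Cj ψ (u1 * u2) z1 := fun h => hn (.inl (he.trans' h))
  have n2 : ¬ Cj ψ (u1 * u2) z := fun h => hn (.inr (he.trans' h))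
  have nz : ∀ w ∈ Z, ¬ Cj ψ (u1 * u2) w := fun w hw h => by
    rcases z_cl w hw with rfl | rfl | rfl | rfl
    · obtain ⟨g, hg⟩ := isConj_iff.1 h
      rw [map_one, conj_eq_one_iff, ← map_one ψ] at hg
      exact absurd (c.inj hg) (by decide)
    · exact n1 h
    · exact n1 (h.trans' (cj_T s z1).symm')
    · exact n2 h
  have one : ∀ a b : TT, (∀ t ∈ B, t ∈ Z ∨ ∃ y ∈ [1, s, v1, v2, v1 * v2, s * v1, s * v2, s * v1 * v2],
      y * a * y⁻¹ = t ∨ y * b * y⁻¹ = t ∨ y * (u1 * u2) * y⁻¹ = t) →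
      (Finset.univ.filter fun t => t ∈ B ∧ ∃ y ∈ [1, s, v1, v2, v1 * v2, s * v1, s * v2, s * v1 * v2],
        y * a * y⁻¹ = t ∨ y * (u1 * u2) * y⁻¹ = t).card = 8 → Cj ψ (u1 * u2) a → ¬ Cj ψ (u1 * u2) b → False := by
    intro a b k1 k2 ha hb
    refine orb8 c f _ k2 (fun t ht => ?_) fun t ht h => ?_
    · obtain ⟨h1, y, -, rfl | rfl⟩ := (Finset.mem_filter.1 ht).2
      exacts [⟨h1, ha.trans' (cj_T y a)⟩, ⟨h1, cj_T y _⟩]
    · rcases k1 t ht with h1 | ⟨y, hy, h1 | h1 | h1⟩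
      · exact absurd h (nz t h1)
      · exact Finset.mem_filter.2 ⟨Finset.mem_univ _, ht, y, hy, .inl h1⟩
      · exact absurd (h.trans' (h1 ▸ (cj_T y b).symm')) hb
      · exact Finset.mem_filter.2 ⟨Finset.mem_univ _, ht, y, hy, .inr h1⟩
  by_cases hc : Cj ψ (u1 * u2) u1 <;> by_cases hd : Cj ψ (u1 * u2) (u1 * z2)
  · refine noZ c f fun g hg w hw => ?_
    obtain ⟨t, ht, e⟩ := hg w (ZB w hw)
    have cw : Cj ψ t w := IsConj.symm (isConj_iff.2 ⟨g, e⟩)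
    rcases b_cl t ht with h1 | ⟨y, -, rfl | rfl | rfl⟩
    · exact ⟨t, h1, e⟩
    · exact absurd ((hc.trans' (cj_T y _)).trans' cw) (nz w hw)
    · exact absurd ((hd.trans' (cj_T y _)).trans' cw) (nz w hw)
    · exact absurd ((cj_T y _).trans' cw) (nz w hw)
  · exact one u1 (u1 * z2) b_cl (by decide +kernel) hc hd
  · exact one (u1 * z2) u1 (fun t ht => (b_cl t ht).imp_right fun ⟨y, hy, h⟩ => ⟨y, hy, or_left_comm.1 h⟩)
      (by decide +kernel) hd hc
  · refine noZ c f fun g hg w hw => ?_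
    have k : ∀ w ∈ Z, ∃ w' ∈ Z, g * ψ (u1 * u2 * w) * g⁻¹ = ψ (u1 * u2 * w') := fun w hw => by
      obtain ⟨t, ht, e⟩ := hg (u1 * u2 * w) (mul_mem (by decide) (ZB w hw))
      obtain ⟨y0, -, e0⟩ := ez w hw
      have cw : Cj ψ (u1 * u2) t := (e0 ▸ cj_T y0 (u1 * u2) : Cj ψ (u1 * u2) (u1 * u2 * w)).trans' (isConj_iff.2 ⟨g, e⟩)
      rcases b_cl t ht with h1 | ⟨y, -, rfl | rfl | rfl⟩
      · exact absurd cw (nz t h1)
      · exact absurd (cw.trans' (cj_T y _).symm') hc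
      · exact absurd (cw.trans' (cj_T y _).symm') hd
      · exact ⟨_, te y, by rw [e, mul_inv_cancel_left]⟩
    obtain ⟨w1, h1, e1⟩ := k 1 (one_mem _)
    obtain ⟨w2, h2, e2⟩ := k w hw
    refine ⟨w1⁻¹ * w2, mul_mem (inv_mem h1) h2, ?_⟩
    rw [mul_one] at e1
    rw [map_mul _ _ w, ← conj_mul, e1, map_mul _ _ w1, map_mul _ _ w2, mul_assoc] at e2
    rw [map_mul, map_inv, ← mul_left_cancel e2]; group

end H326.Qw
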