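import Mathlib.NumberTheory.ModularForms.JacobiTheta.TwoVariable
import Mathlib.LinearAlgebra.Matrix.NonsingularInverse

/-! Poisson summation for Gaussians on `ℤ ^ n` (`poisson`). -/

set_option autoImplicit false

namespace H326.Th

open Complex Real Finset

variable {n : ℕ}

/-- a real quadratic form on complex vectors -/
noncomputable def qf (A : Matrix (Fin n) (Fin n) ℝ) (w : Fin n → ℂ) : ℂ := ∑ i, ∑ j, w i * A i j * w j

/-- positive definite -/
def PD (A : Matrix (Fin n) (Fin n) ℝ) : Prop := ∀ x : Fin n → ℝ, x ≠ 0 → 0 < ∑ i, ∑ j, x i * A i j * x j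

/-- a Gaussian -/
noncomputable def gt (A : Matrix (Fin n) (Fin n) ℝ) (t : ℂ) (b : Fin n → ℂ) (x : Fin n → ℤ) : ℂ :=
  cexp (-π * t * qf A (fun i => x i) + 2 * π * ∑ i, b i * x i)

theorem PD.coer {A : Matrix (Fin n) (Fin n) ℝ} (h : PD A) :
    ∃ ε > 0, ∀ x : Fin n → ℝ, ε * ∑ i, x i ^ 2 ≤ ∑ i, ∑ j, x i * A i j * x j := by
  obtain ⟨ε, e0, he⟩ := (isCompact_sphere (0 : Fin n → ℝ) 1).exists_forall_le'
    (f := fun x => ∑ i, ∑ j, x i * A i j * x j) (by fun_prop) fun x hx => h x (by rintro rfl; simp at hx)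
  refine ⟨ε / (n + 1), by positivity, fun x => ?_⟩
  rcases eq_or_ne x 0 with rfl | x0
  · simp
  have n0 := norm_pos_iff.2 x0
  have h1 := he (‖x‖⁻¹ • x) (by simp [norm_smul, n0.ne'])
  have h2 : ∑ i, x i ^ 2 ≤ (n + 1) * ‖x‖ ^ 2 := (sum_le_card_nsmul _ _ (‖x‖ ^ 2) fun i _ =>
    sq_le_sq' (abs_le.1 (norm_le_pi_norm x i)).1 (abs_le.1 (norm_le_pi_norm x i)).2).trans (by simp; nlinarith)
  have h3 : ∑ i, ∑ j, x i * A i j * x j = ‖x‖ ^ 2 * ∑ i, ∑ j, (‖x‖⁻¹ • x) i * A i j * (‖x‖⁻¹ • x) j := by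
    simp only [mul_sum, Pi.smul_apply, smul_eq_mul]
    exact sum_congr rfl fun _ _ => sum_congr rfl fun _ _ => by field_simp
  rw [h3, div_mul_eq_mul_div, div_le_iff₀ (by positivity)]
  nlinarith [mul_le_mul_of_nonneg_left h2 e0.le, mul_le_mul_of_nonneg_left h1 (show 0 ≤ (n + 1) * ‖x‖ ^ 2 by positivity)]

theorem sum1 {a : ℂ} (ha : 0 < a.re) (b : ℂ) : Summable fun k : ℤ => ‖cexp (-π * a * k ^ 2 + 2 * π * b * k)‖ :=
  ((summable_jacobiTheta₂_term_iff (-I * b) (I * a)).2 (by simpa using ha)).norm.congr fun k => by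
    rw [jacobiTheta₂_term]
    congr 2
    linear_combination (π * k ^ 2 * a - 2 * π * k * b) * I_mul_I

theorem sum_pi : ∀ {n : ℕ} (f : Fin n → ℤ → ℝ), (∀ i, Summable (f i)) → (∀ i k, 0 ≤ f i k) →
    Summable fun x : Fin n → ℤ => ∏ i, f i (x i)
  | 0, _, _, _ => .of_finite
  | n + 1, f, h, h' => by
    rw [← (Fin.consEquiv fun _ => ℤ).summable_iff]
    simpa [Function.comp_def, Fin.prod_univ_succ, Fin.consEquiv] using (h 0).mul_of_nonneg
      (sum_pi (fun i => f i.succ) (fun i => h _) fun i => h' _) (h' 0) fun _ => prod_nonneg fun _ _ => h' _ _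

theorem norm_gt (A : Matrix (Fin n) (Fin n) ℝ) (t : ℂ) (b : Fin n → ℂ) (x : Fin n → ℤ) : ‖gt A t b x‖ =
    rexp (-π * t.re * (∑ i, ∑ j, (x i : ℝ) * A i j * x j) + 2 * π * ∑ i, (b i).re * x i) := by
  simp [gt, qf, Complex.norm_exp]

theorem PD.sum {A : Matrix (Fin n) (Fin n) ℝ} (h : PD A) {t : ℂ} (ht : 0 < t.re) (b : Fin n → ℂ) :
    Summable fun x => ‖gt A t b x‖ := by
  obtain ⟨ε, e0, he⟩ := h.coer
  refine .of_nonneg_of_le (fun _ => norm_nonneg _) (fun x => ?_) (sum_pi _ (fun i => sum1 (a := (t.re * ε : ℝ))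
    (by rw [ofReal_re]; positivity) (b i)) fun _ _ => norm_nonneg _)
  have e : ∀ i, (-π * (t.re * ε : ℝ) * (x i : ℂ) ^ 2 + 2 * π * b i * x i).re =
      -π * t.re * (ε * (x i : ℝ) ^ 2) + 2 * π * ((b i).re * x i) := fun i => by
    simp [pow_two]; ring
  simp only [norm_gt, Complex.norm_exp, ← Real.exp_sum, e, sum_add_distrib, ← mul_sum, Real.exp_le_exp]
  nlinarith [mul_le_mul_of_nonneg_left (he fun i => x i) (mul_pos pi_pos ht).le]

theorem qf_add (A : Matrix (Fin n) (Fin n) ℝ) (y β : Fin n → ℂ) :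
    qf A (y + β) = qf A y + ∑ i, (∑ j, (A i j * β j + β j * A j i)) * y i + qf A β := by
  simp only [qf, Pi.add_apply, sum_mul, add_mul, mul_add, sum_add_distrib]
  rw [sum_comm (f := fun i j => β i * A i j * y j)]
  have : ∑ i, ∑ j, y i * A i j * β j = ∑ i, ∑ j, A i j * β j * y i := sum_congr rfl fun _ _ => sum_congr rfl fun _ _ => by ring
  rw [this]
  ring

theorem PD.sum' {A : Matrix (Fin n) (Fin n) ℝ} (h : PD A) {t : ℂ} (ht : 0 < t.re) (β : Fin n → ℂ) :
    Summable fun y : Fin n → ℤ => cexp (-π / t * qf A ((fun i => (y i : ℂ)) + β)) :=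
  ((h.sum (t := t⁻¹) (by rw [inv_re]; exact div_pos ht (normSq_pos.2 (by rintro rfl; simp at ht)))
    fun i => -(2 * t)⁻¹ * ∑ j, (A i j * β j + β j * A j i)).of_norm.mul_right (cexp (-π / t * qf A β))).congr fun y => by
      rw [gt, ← Complex.exp_add, qf_add]
      simp only [mul_assoc (-(2 * t)⁻¹), ← mul_sum]
      congr 1
      ring

theorem PD.inv {A A' : Matrix (Fin n) (Fin n) ℝ} (h : PD A) (e : A * A' = 1) : PD A' := fun x x0 => by
  have e1 : A.mulVec (A'.mulVec x) = x := by rw [Matrix.mulVec_mulVec, e, Matrix.one_mulVec]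
  have := h (A'.mulVec x) fun c => x0 (by rw [← e1, c, Matrix.mulVec_zero])
  have k : ∀ (B : Matrix (Fin n) (Fin n) ℝ) (y : Fin n → ℝ), ∑ i, ∑ j, y i * B i j * y j = y ⬝ᵥ B.mulVec y := fun B y => by
    simp only [dotProduct, Matrix.mulVec, mul_sum, mul_assoc]
  rwa [k, e1, dotProduct_comm, ← k] at this

theorem lin (μ : ℂ) (b c x : Fin n → ℂ) : ∑ i, (b i + μ * c i) * x i = ∑ i, b i * x i + μ * ∑ i, c i * x i := by
  simp only [add_mul, sum_add_distrib, mul_assoc, mul_sum]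

theorem poisson : ∀ {n : ℕ} (A A' : Matrix (Fin n) (Fin n) ℝ), A.IsSymm → PD A → A * A' = 1 →
    ∃ c : ℂ, ∀ t : ℂ, 0 < t.re → ∀ b : Fin n → ℂ, ∑' x, gt A t b x =
      c * (1 / t ^ (1 / 2 : ℂ)) ^ n * ∑' y : Fin n → ℤ, cexp (-π / t * qf A' ((fun i => (y i : ℂ)) + fun i => I * b i))
  | 0, _, _, _, _, _ => ⟨1, fun t _ b => by simp [gt, qf]⟩
  | n + 1, A, A', hs, h, e => by
    have sy : ∀ i j, A j i = A i j := fun i j => congr($hs i j)
    have a0 : 0 < A 0 0 := by simpa [Fin.sum_univ_succ] using h (Fin.cons 1 0) fun c => one_ne_zero congr($c 0)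
    let S : Matrix (Fin n) (Fin n) ℝ := .of fun i j => A i.succ j.succ - A 0 i.succ * A 0 j.succ / A 0 0
    have hS : ∀ (K : Type) [Field K] (f : ℝ →+* K) (x0 : K) (x : Fin n → K),
        ∑ i, ∑ j, Fin.cons (α := fun _ => K) x0 x i * f (A i j) * Fin.cons (α := fun _ => K) x0 x j =
        f (A 0 0) * (x0 + (∑ j, f (A 0 j.succ) * x j) / f (A 0 0)) ^ 2 + ∑ i, ∑ j, x i * f (S i j) * x j := by
      intro K _ f x0 x
      have : f (A 0 0) ≠ 0 := (map_ne_zero f).2 a0.ne'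
      have e1 : ∑ i, ∑ j, x i * f (S i j) * x j = ∑ i, ∑ j, x i * f (A i.succ j.succ) * x j -
          (∑ j, f (A 0 j.succ) * x j) ^ 2 / f (A 0 0) := by
        simp only [pow_two, sum_mul_sum, sum_div, ← sum_sub_distrib, S, Matrix.of_apply, map_sub, map_div₀, map_mul]
        exact sum_congr rfl fun _ _ => sum_congr rfl fun _ _ => by ring
      simp only [Fin.sum_univ_succ, Fin.cons_zero, Fin.cons_succ, sum_add_distrib, e1, sy 0 (Fin.succ _), mul_assoc x0,
        ← mul_sum, ← sum_mul, mul_comm (x _) (f (A 0 _))]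
      field_simp
      ring
    have pS : PD S := fun x x0 => by
      have := h (Fin.cons (-((∑ j, A 0 j.succ * x j) / A 0 0)) x) fun c => x0 (funext fun i => congr($c i.succ))
      simpa using (hS ℝ (.id ℝ) _ x).subst (motive := (0 < ·)) this
    have eS : S * A'.submatrix Fin.succ Fin.succ = 1 := Matrix.ext fun i j => by
      have e1 := congr($e 0 j.succ)
      have e2 := congr($e i.succ j.succ)
      simp only [Matrix.mul_apply, Fin.sum_univ_succ, Matrix.one_apply, Fin.succ_inj, (Fin.succ_ne_zero j).symm,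
        if_false, sy 0 (Fin.succ _)] at e1 e2
      simp only [Matrix.mul_apply, S, Matrix.of_apply, Matrix.submatrix_apply, Matrix.one_apply, ← e2, sub_mul,
        sum_sub_distrib, mul_right_comm (A 0 i.succ) _ _⁻¹, div_eq_mul_inv, mul_assoc (A 0 i.succ * _), ← mul_sum]
      field_simp
      linear_combination -A 0 i.succ * e1
    have hA' : ∀ (w0 : ℂ) (w : Fin n → ℂ), qf A' (Fin.cons w0 w) = w0 ^ 2 / A 0 0 +
        qf (A'.submatrix Fin.succ Fin.succ) fun i => w i - w0 * A 0 i.succ / A 0 0 := fun w0 w => by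
      have a1 : (A 0 0 : ℂ) ≠ 0 := ofReal_ne_zero.2 a0.ne'
      have r1 : ∀ j : Fin n, (A' j.succ 0 : ℂ) = -(A 0 0 : ℂ)⁻¹ * ∑ k : Fin n, (A' j.succ k.succ : ℂ) * A 0 k.succ := fun j => by
        have := congr(($(mul_eq_one_comm.1 e) j.succ 0 : ℂ))
        simp [Matrix.mul_apply, Fin.sum_univ_succ, sy 0 (Fin.succ _)] at this
        field_simp; linear_combination this
      have r2 : ∀ j : Fin n, (A' 0 j.succ : ℂ) = -(A 0 0 : ℂ)⁻¹ * ∑ k : Fin n, (A 0 k.succ : ℂ) * A' k.succ j.succ := fun j => by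
        have := congr(($e 0 j.succ : ℂ))
        simp [Matrix.mul_apply, Fin.sum_univ_succ, (Fin.succ_ne_zero j).symm] at this
        field_simp; linear_combination this
      have r0 : (A' 0 0 : ℂ) = (A 0 0 : ℂ)⁻¹ + (A 0 0 : ℂ)⁻¹ ^ 2 *
          ∑ i : Fin n, ∑ j : Fin n, (A 0 i.succ : ℂ) * A' i.succ j.succ * A 0 j.succ := by
        have := congr(($e 0 0 : ℂ))
        simp [Matrix.mul_apply, Fin.sum_univ_succ, r1, mul_left_comm _ (A 0 0 : ℂ)⁻¹, ← mul_sum] at this
        simp only [mul_assoc, ← mul_sum]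
        field_simp at this ⊢; linear_combination this
      have e1 : ∑ i : Fin n, ∑ j : Fin n, (w i - w0 * A 0 i.succ / A 0 0) * A' i.succ j.succ * (w j - w0 * A 0 j.succ / A 0 0) =
          ∑ i : Fin n, ∑ j : Fin n, w i * A' i.succ j.succ * w j +
          ∑ i : Fin n, w i * (-(A 0 0 : ℂ)⁻¹ * ∑ k : Fin n, (A' i.succ k.succ : ℂ) * A 0 k.succ) * w0 +
          ∑ j : Fin n, w0 * (-(A 0 0 : ℂ)⁻¹ * ∑ k : Fin n, (A 0 k.succ : ℂ) * A' k.succ j.succ) * w j +
          w0 ^ 2 * ((A 0 0 : ℂ)⁻¹ ^ 2 * ∑ i : Fin n, ∑ j : Fin n, (A 0 i.succ : ℂ) * A' i.succ j.succ * A 0 j.succ) := by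
        simp only [mul_sum, sum_mul]
        rw [sum_comm (f := fun j k : Fin n => w0 * (-(A 0 0 : ℂ)⁻¹ * (A 0 k.succ * A' k.succ j.succ)) * w j)]
        simp only [← sum_add_distrib]
        exact sum_congr rfl fun _ _ => sum_congr rfl fun _ _ => by ring
      simp only [qf, Fin.sum_univ_succ, Fin.cons_zero, Fin.cons_succ, sum_add_distrib, Matrix.submatrix_apply, e1, r0, r1, r2]
      ring
    obtain ⟨c, hc⟩ := poisson S _ (Matrix.IsSymm.ext fun i j => by simp [S, sy j.succ, mul_comm]) pS eS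
    refine ⟨c / (A 0 0 : ℂ) ^ (1 / 2 : ℂ), fun t ht b => ?_⟩
    have a1 : (A 0 0 : ℂ) ≠ 0 := ofReal_ne_zero.2 a0.ne'
    have t0 : t ≠ 0 := by rintro rfl; simp at ht
    have ta : 0 < (A 0 0 * t).re := by simpa using mul_pos a0 ht
    have cc : ∀ (k : ℤ) (x : Fin n → ℤ), (fun i => ((Fin.consEquiv (fun _ => ℤ) (k, x) i : ℤ) : ℂ)) =
        Fin.cons (k : ℂ) fun i => (x i : ℂ) := fun k x => funext fun i => by cases i using Fin.cases <;> rfl
    let H : ℤ → (Fin n → ℤ) → ℂ := fun k x => cexp (-π / (A 0 0 * t) * (k + I * b 0) ^ 2) *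
      gt S t (fun i => b i.succ + I * (k + I * b 0) / A 0 0 * A 0 i.succ) x
    have s1 : ∀ x : Fin n → ℤ, ∑' k : ℤ, gt A t b (Fin.consEquiv (fun _ => ℤ) (k, x)) =
        1 / (A 0 0 * t) ^ (1 / 2 : ℂ) * ∑' k, H k x := fun x => by
      have := congr($(tsum_exp_neg_quadratic ta (b 0 - t * ∑ j : Fin n, (A 0 j.succ : ℂ) * x j)) * cexp (-π * t *
        (qf S (fun i => x i) + (∑ j : Fin n, (A 0 j.succ : ℂ) * x j) ^ 2 / A 0 0) + 2 * π * ∑ i, b i.succ * x i))
      rw [← tsum_mul_right, mul_assoc (1 / _), ← tsum_mul_right] at this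
      refine (tsum_congr fun k => ?_).trans (this.trans (congrArg _ (tsum_congr fun k => ?_)))
      · have := hS ℂ ofRealHom k fun i => x i
        simp only [ofRealHom_eq_coe] at this
        rw [gt, cc, qf, this, ← Complex.exp_add]
        simp only [Fin.sum_univ_succ, Fin.consEquiv_apply, Fin.cons_zero, Fin.cons_succ, qf]
        congr 1
        field_simp
        ring
      · simp only [H, gt, ← Complex.exp_add, lin]
        congr 1
        field_simp
        linear_combination (-t ^ 2 * (∑ j : Fin n, (A 0 j.succ : ℂ) * x j) ^ 2) * I_mul_I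
    have s2 : Summable (Function.uncurry H) := by
      refine .of_norm (((sum1 (a := (A 0 0 * t)⁻¹) (by
        rw [inv_re]; exact div_pos ta (normSq_pos.2 (mul_ne_zero a1 t0))) (-I * b 0 / (A 0 0 * t))).mul_of_nonneg
          (pS.sum ht fun i => b i.succ + -b 0 / A 0 0 * A 0 i.succ) (fun _ => norm_nonneg _) fun _ => norm_nonneg _).mul_left
            ‖cexp (π / (A 0 0 * t) * b 0 ^ 2)‖ |>.congr fun ⟨k, x⟩ => ?_)
      rw [← mul_one (_ * _), ← norm_exp_ofReal_mul_I (2 * π * k * (∑ j : Fin n, A 0 j.succ * x j) / A 0 0)]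
      simp only [← norm_mul, Function.uncurry, H, gt, ← Complex.exp_add, lin]
      congr 2
      push_cast
      field_simp
      linear_combination (b 0 ^ 2 - 2 * t * b 0 * ∑ j : Fin n, (A 0 j.succ : ℂ) * x j) * I_mul_I
    have s3 : (A 0 0 * t) ^ (1 / 2 : ℂ) = (A 0 0 : ℂ) ^ (1 / 2 : ℂ) * t ^ (1 / 2 : ℂ) := by
      rw [cpow_def_of_ne_zero (mul_ne_zero a1 t0), cpow_def_of_ne_zero a1, cpow_def_of_ne_zero t0, log_ofReal_mul a0 t0,
        ← Complex.exp_add, add_mul, ofReal_log a0.le]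
    have s4 := (Fin.consEquiv fun _ => ℤ).summable_iff.2 (h.sum ht b).of_norm
    have s5 := (Fin.consEquiv fun _ => ℤ).summable_iff.2 ((h.inv e).sum' ht fun i => I * b i)
    simp only [Function.comp_def] at s4 s5
    rw [← (Fin.consEquiv fun _ => ℤ).tsum_eq, ← (Fin.consEquiv fun _ => ℤ).tsum_eq, s4.tsum_prod, s5.tsum_prod,
      ← Summable.tsum_comm (f := fun k x => gt A t b (Fin.consEquiv (fun _ => ℤ) (k, x))) s4]
    simp only [s1]
    rw [tsum_mul_left, s2.tsum_comm, ← tsum_mul_left, ← tsum_mul_left]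
    refine tsum_congr fun k => ?_
    simp only [H]
    rw [tsum_mul_left, hc t ht, mul_left_comm (cexp _), ← tsum_mul_left, s3, ← mul_assoc]
    congr 1
    · ring
    refine tsum_congr fun y => ?_
    have : ((fun i => ((Fin.consEquiv (fun _ => ℤ) (k, y) i : ℤ) : ℂ)) + fun i => I * b i) =
        Fin.cons (k + I * b 0) fun i => y i + I * b i.succ := funext fun i => by cases i using Fin.cases <;> rfl
    rw [this, hA', ← Complex.exp_add, mul_add (-π / t : ℂ)]
    refine congrArg _ (congrArg₂ _ ?_ (congrArg _ (congrArg _ (funext fun i => ?_))))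
    · field_simp
    · simp only [Pi.add_apply]
      linear_combination ((k + I * b 0) * A 0 i.succ / A 0 0) * I_mul_I

end H326.Th
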