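import Cfsg.Agent.H26.Th1
import Mathlib.NumberTheory.ModularForms.LevelOne.DimensionFormula
import Mathlib.Analysis.Matrix.PosDef

/-! The theta series of an even unimodular lattice of rank 24 is a modular form of weight 12 (`exists_theta`);
weight 12 forms `1 + 0 q + ⋯` have the coefficients of the Leech lattice (`coeffs`). -/

set_option autoImplicit false

namespace H326.Th

open Complex Real Finset Matrix ModularForm MatrixGroups EisensteinSeries
open UpperHalfPlane hiding I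

theorem pd_of_int {n : ℕ} {B : Matrix (Fin n) (Fin n) ℤ} (hs : B.IsSymm) (hpos : ∀ x : Fin n → ℤ, x ≠ 0 → 0 < x ⬝ᵥ (B *ᵥ x))
    (hdet : B.det = 1) : PD (B.map (Int.cast : ℤ → ℝ)) := by
  have k : ∀ y : Fin n → ℝ, ∑ i, ∑ j, y i * (B i j : ℝ) * y j = y ⬝ᵥ (B.map (Int.cast : ℤ → ℝ)) *ᵥ y := fun y => by
    simp only [dotProduct, mulVec, mul_sum, mul_assoc, map_apply]
  have h0 : ∀ y : Fin n → ℝ, 0 ≤ ∑ i, ∑ j, y i * (B i j : ℝ) * y j := fun y => by
    refine (DenseRange.piMap fun _ : Fin n => Rat.denseRange_cast (𝕜 := ℝ)).induction_on y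
      (isClosed_le continuous_const (by fun_prop)) fun x => ?_
    obtain ⟨⟨d, hd⟩, h⟩ := IsLocalization.exist_integer_multiples_of_finite (nonZeroDivisors ℤ) x
    choose z hz using h
    have hz : ∀ i, (z i : ℝ) = d * x i := fun i => by simpa using congr(($(hz i) : ℝ))
    have h1 : (0 : ℝ) ≤ (z ⬝ᵥ (B *ᵥ z) : ℤ) := by
      rcases eq_or_ne z 0 with rfl | c
      exacts [by simp, mod_cast (hpos z c).le]
    have h2 : ((z ⬝ᵥ (B *ᵥ z) : ℤ) : ℝ) = d ^ 2 * ∑ i, ∑ j, (x i : ℝ) * B i j * x j := by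
      simp only [dotProduct, mulVec, mul_sum, Int.cast_sum, Int.cast_mul, hz]
      exact sum_congr rfl fun _ _ => sum_congr rfl fun _ _ => by ring
    have d0 : (0 : ℝ) < d ^ 2 := by have := nonZeroDivisors.ne_zero hd; positivity
    exact (mul_nonneg_iff_of_pos_left d0).1 (h2 ▸ h1)
  have ps : (B.map (Int.cast : ℤ → ℝ)).PosSemidef := .of_dotProduct_mulVec_nonneg
    (Matrix.ext fun i j => by simpa using congr(($hs i j : ℝ))) fun y => by simpa [← k] using h0 y
  refine fun y y0 => (h0 y).lt_of_ne' fun c => y0 (eq_zero_of_mulVec_eq_zero (M := B.map (Int.cast : ℤ → ℝ)) ?_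
    ((ps.dotProduct_mulVec_zero_iff y).1 (by simpa [← k] using c)))
  rw [← Int.cast_det, hdet]; simp

theorem exists_theta (B : Matrix (Fin 24) (Fin 24) ℤ) (hs : B.IsSymm) (hpos : ∀ x : Fin 24 → ℤ, x ≠ 0 → 0 < x ⬝ᵥ (B *ᵥ x))
    (heven : ∀ x : Fin 24 → ℤ, (2 : ℤ) ∣ x ⬝ᵥ (B *ᵥ x)) (hdet : B.det = 1) : ∃ f : ModularForm 𝒮ℒ 12, ∀ m : ℕ,
      (qExpansion 1 f).coeff m = {x : Fin 24 → ℤ | x ⬝ᵥ (B *ᵥ x) = 2 * m}.ncard := by
  have pd := pd_of_int hs hpos hdet
  have e1 : B * B.adjugate = 1 := by rw [mul_adjugate, hdet, one_smul]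
  have e2 : B.adjugate * B = 1 := by rw [adjugate_mul, hdet, one_smul]
  have q : ∀ (C : Matrix (Fin 24) (Fin 24) ℤ) (x : Fin 24 → ℤ),
      qf (C.map (Int.cast : ℤ → ℝ)) (fun i => x i) = (x ⬝ᵥ (C *ᵥ x) : ℤ) := fun C x => by
    simp [qf, dotProduct, mulVec, mul_sum, mul_assoc]
  let Θ : ℂ → ℂ := fun t => ∑' x : Fin 24 → ℤ, cexp (-π * t * (x ⬝ᵥ (B *ᵥ x) : ℤ))
  have g : ∀ t x, gt (B.map (Int.cast : ℤ → ℝ)) t 0 x = cexp (-π * t * (x ⬝ᵥ (B *ᵥ x) : ℤ)) := fun t x => by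
    rw [gt, q]; simp
  have sm : ∀ t : ℂ, 0 < t.re → Summable fun x : Fin 24 → ℤ => ‖cexp (-π * t * (x ⬝ᵥ (B *ᵥ x) : ℤ))‖ := fun t ht => by
    simpa only [g] using pd.sum ht 0
  obtain ⟨c, hc⟩ := poisson _ (B.adjugate.map (Int.cast : ℤ → ℝ)) (hs.map _) pd
    ((Matrix.map_mul (f := Int.castRingHom ℝ)).symm.trans (by simp [e1]))
  have hc : ∀ t : ℂ, 0 < t.re → Θ t = c * (t ^ 12)⁻¹ * Θ t⁻¹ := fun t ht => by
    have := hc t ht 0
    simp only [g, Pi.zero_apply, mul_zero, Pi.add_def, add_zero, q] at this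
    rw [pow_mul _ 2 12, one_div, one_div, inv_pow, cpow_ofNat_inv_pow, inv_pow] at this
    refine this.trans (congrArg _ ?_)
    rw [← (⟨B.mulVec, B.adjugate.mulVec, fun x => by simp [e2], fun x => by simp [e1]⟩ : _ ≃ _).tsum_eq]
    exact tsum_congr fun x => by simp [e2, dotProduct_comm, div_eq_mul_inv]
  obtain rfl : c = 1 := by
    have := hc 1 (by simp)
    have e : Θ 1 = (∑' x : Fin 24 → ℤ, ‖cexp (-π * 1 * (x ⬝ᵥ (B *ᵥ x) : ℤ))‖ : ℝ) := by
      rw [ofReal_tsum]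
      exact tsum_congr fun x => by simp [Complex.norm_exp]
    have n0 : Θ 1 ≠ 0 := e ▸ ofReal_ne_zero.2 ((sm 1 (by simp)).tsum_pos (fun _ => norm_nonneg _) 0 (by simp)).ne'
    simpa [n0] using this.symm
  have nn : ∀ x : Fin 24 → ℤ, 0 ≤ x ⬝ᵥ (B *ᵥ x) := fun x => by
    rcases eq_or_ne x 0 with rfl | c
    exacts [by simp, (hpos x c).le]
  let m : (Fin 24 → ℤ) → ℕ := fun x => (x ⬝ᵥ (B *ᵥ x) / 2).toNat
  have hm : ∀ x, x ⬝ᵥ (B *ᵥ x) = 2 * m x := fun x => by have := nn x; have := heven x; simp only [m]; omega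
  have tm : ∀ (z : ℂ) x, cexp (-π * (-I * z) * (x ⬝ᵥ (B *ᵥ x) : ℤ)) = Function.Periodic.qParam 1 z ^ m x := fun z x => by
    rw [hm, Function.Periodic.qParam, ← Complex.exp_nat_mul]
    congr 1; push_cast; ring
  let θ : ℍ → ℂ := fun z => Θ (-I * z)
  have hq : ∀ z : ℍ, HasSum (fun k : ℕ => (({x : Fin 24 → ℤ | x ⬝ᵥ (B *ᵥ x) = 2 * k}.ncard : ℕ) : ℂ) •
      Function.Periodic.qParam 1 z ^ k) (θ z) := fun z => by
    refine HasSum.congr_fun ((sm (-I * z) (by simpa using z.im_pos)).of_norm.hasSum.tsum_fiberwise m) fun k => ?_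
    rw [tsum_congr (g := fun _ => Function.Periodic.qParam 1 z ^ k) fun x => by rw [tm, show m x.1 = k from x.2],
      tsum_const, Nat.card_coe_set_eq, smul_eq_mul, nsmul_eq_mul]
    congr 3
    ext x
    simp [hm]
  have inv : ∀ γ : SL(2, ℤ), θ ∣[(12 : ℤ)] γ = θ := SlashInvariantForm.slash_action_generators_SL2Z (funext fun z => by
    have z0 := z.ne_zero
    rw [SlashInvariantForm.slash_S_apply]
    simp only [θ]
    rw [hc (-I * z) (by simpa using z.im_pos), show (-I * z) ^ 12 = z ^ 12 by rw [mul_pow, show (-I) ^ 12 = (I ^ 4) ^ 3 by ring]; simp,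
      show (-I * z)⁻¹ = -I * (-(z : ℂ))⁻¹ by field_simp; simp, _root_.zpow_neg, mul_comm]
    simp) (funext fun z => by
      rw [SL_slash_apply, modular_T_smul, ModularGroup.denom_apply]
      simp only [θ, Θ, tm]
      simp [Function.Periodic.qParam, mul_add, Complex.exp_add, ModularGroup.coe_T])
  let f : ModularForm 𝒮ℒ 12 :=
    { toFun := θ
      slash_action_eq' := fun _ ⟨γ, hγ⟩ => hγ ▸ inv γ
      holo' := by
        rw [UpperHalfPlane.mdifferentiable_iff]
        refine .congr (f := fun z => Θ (-I * z)) (fun z hz => ?_) fun z hz => by simp [θ, ofComplex_apply_of_im_pos hz]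
        have hz : 0 < z.im := hz
        have o : IsOpen {w : ℂ | z.im / 2 < w.im} := isOpen_lt continuous_const Complex.continuous_im
        refine ((differentiableOn_tsum_of_summable_norm (F := fun x w => cexp (-π * (-I * w) * (x ⬝ᵥ (B *ᵥ x) : ℤ)))
          (sm (z.im / 2 : ℝ) (by rw [ofReal_re]; positivity)) (fun _ => by fun_prop) o fun x w hw => ?_).differentiableAt
            (o.mem_nhds (half_lt_self hz))).differentiableWithinAt
        have hw : z.im / 2 < w.im := hw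
        have : (0 : ℝ) ≤ (x ⬝ᵥ (B *ᵥ x) : ℤ) := mod_cast nn x
        simp [Complex.norm_exp]
        gcongr
      bdd_at_cusps' := fun hc => by
        rw [Subgroup.IsArithmetic.isCusp_iff_isCusp_SL2Z] at hc
        rw [OnePoint.isBoundedAt_iff_forall_SL2Z hc]
        intro γ _
        rw [inv]
        exact isBoundedAtImInfty_of_hasSum_qExpansion one_pos hq }
  exact ⟨f, fun k => (ModularFormClass.qExpansion_coeff_unique one_pos one_mem_strictPeriods_SL (f := f) hq k).symm⟩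

theorem coeffs (f : ModularForm 𝒮ℒ 12) (h0 : (qExpansion 1 f).coeff 0 = 1) (h1 : (qExpansion 1 f).coeff 1 = 0) :
    (qExpansion 1 f).coeff 2 = 196560 ∧ (qExpansion 1 f).coeff 3 = 16773120 ∧ (qExpansion 1 f).coeff 4 = 398034000 := by
  obtain ⟨g, e⟩ : ∃ g : ModularForm 𝒮ℒ 12, qExpansion 1 g = (691 / 756 : ℂ) • qExpansion 1 (E (k := 12) (by simp)) +
      (65 / 756 : ℂ) • (qExpansion 1 E₆ * qExpansion 1 E₆) := by
    obtain ⟨g1, e1⟩ : ∃ g : ModularForm 𝒮ℒ 12, qExpansion 1 g = qExpansion 1 (E (k := 12) (by simp)) :=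
      ⟨E (k := 12) (by simp), rfl⟩
    obtain ⟨g2, e2⟩ : ∃ g : ModularForm 𝒮ℒ 12, qExpansion 1 g = qExpansion 1 E₆ * qExpansion 1 E₆ :=
      ⟨E₆.mul E₆, ModularForm.qExpansion_mul one_pos one_mem_strictPeriods_SL _ _⟩
    refine ⟨(691 / 756 : ℂ) • g1 + (65 / 756 : ℂ) • g2, ?_⟩
    rw [FunLike.coe_add, ModularForm.qExpansion_add one_pos one_mem_strictPeriods_SL, FunLike.coe_smul, FunLike.coe_smul,
      ModularForm.qExpansion_smul one_pos one_mem_strictPeriods_SL,
      ModularForm.qExpansion_smul one_pos one_mem_strictPeriods_SL, e1, e2]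
  have s : ∀ k m : ℕ, (ArithmeticFunction.sigma k m : ℂ) = ((∑ d ∈ m.divisors, d ^ k : ℕ) : ℂ) := fun k m => by
    rw [ArithmeticFunction.sigma_apply]
  have c : (qExpansion 1 g).coeff 0 = 1 ∧ (qExpansion 1 g).coeff 1 = 0 ∧ (qExpansion 1 g).coeff 2 = 196560 ∧
      (qExpansion 1 g).coeff 3 = 16773120 ∧ (qExpansion 1 g).coeff 4 = 398034000 := by
    simp [-PowerSeries.coeff_zero_eq_constantCoeff, e, PowerSeries.coeff_mul, Finset.Nat.antidiagonal_succ, E_qExpansion_coeff _ (show Even 12 by decide),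
      E_qExpansion_coeff _ (show Even 6 by decide), show bernoulli 6 = 1 / 42 by decide +kernel,
      show bernoulli 12 = -691 / 2730 by decide +kernel, s, show Nat.divisors 4 = {1, 2, 4} by decide,
      show Nat.divisors 2 = {1, 2} by decide, show Nat.divisors 3 = {1, 3} by decide]
    norm_num
  obtain rfl : f = g := sub_eq_zero.1 (sturm_bound_levelOne (PowerSeries.nat_le_order _ 2 (fun i hi => by
    rw [FunLike.coe_sub, ModularForm.qExpansion_sub one_pos one_mem_strictPeriods_SL, map_sub]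
    interval_cases i <;> simp only [h0, h1, c, sub_self]) |>.trans_lt' (by norm_num; decide)))
  exact c.2.2

end H326.Th
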