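import Cfsg.Agent.H17.Dich
import Cfsg.Agent.H3.Rank2b
import Cfsg.Agent.H18.GT1
import Cfsg.Agent.H9.Hv2
import Cfsg.Agent.H22.QW
import Cfsg.Agent.S1221
/-! Groups with solvable involution centralizers and `C(Ω₁Z(S)) ≤ N(S)`: `one_class` (one class of involutions in
`2`-rank two), `zc_cases` (reduction to characteristic `2` type). -/
set_option autoImplicit false
namespace H26.ZC
open Cfsg Subgroup H18 H17

local notation "θ" => centralizerPPrimeCore 2
local notation "p2" => Nat.prime_two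

variable {G : Type*} [Group G] [Finite G]

theorem one_class (P : Sylow 2 G) (h2 : PRankLE 2 2 G) (hn : ∀ M : Subgroup G, M.index ≠ 2) {z a : G}
    (zP : z ∈ (P : Subgroup G)) (zc : ∀ x ∈ (P : Subgroup G), x * z = z * x) (z2 : orderOf z = 2)
    (aP : a ∈ (P : Subgroup G)) (az : a ≠ z) (c : IsConj z a) :
    (∀ b ∈ (P : Subgroup G), orderOf b = 2 → IsConj z b) ∨
      ∀ b ∈ (P : Subgroup G), b * b = 1 → ∀ x ∈ (P : Subgroup G), x * b = b * x := by
  have hP := hall_sylow_top p2 P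
  have sq : ∀ {b : G}, orderOf b = 2 → b * b = 1 := fun e => (H9.orderOf_eq_two.1 e).1
  have cyc : ∀ x : G, (zpowers x).relIndex P = 2 → ∀ b ∈ (P : Subgroup G), orderOf b = 2 → IsConj z b :=
    fun x i b hb b2 => by
      obtain ⟨g, hg⟩ := GT.thompson hn hP i hb (sq b2)
      obtain ⟨k, hk⟩ := GT.thompson hn hP i zP (sq z2)
      exact (isConj_iff.2 ⟨k, H9.inv_unique_zpowers hk hg (orderOf_conj.trans z2) (orderOf_conj.trans b2)⟩).trans
        (isConj_iff.2 ⟨g, rfl⟩).symm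
  refine or_iff_not_imp_right.2 fun nc => ?_
  rcases H9.cyclic_or_mc_or_klein P.isPGroup' with e | ⟨k, x, e⟩ | ⟨W, WP, nW, hk⟩
  · exact (nc fun b hb _ x hx => congrArg Subtype.val (e.commutative.1.1 ⟨x, hx⟩ ⟨b, hb⟩)).elim
  · exact cyc x e.idx
  have r := (H3.rank_sylow P).2 h2
  let U := W.subgroupOf P
  have cU : Nat.card U = 4 := (card_subgroupOf WP).trans hk.card_four
  have two : ∀ x ∈ U, x * x = 1 := fun x hx =>
    Subtype.ext (congrArg (fun w : W => w.1) (IsKleinFour.mul_self (⟨x, hx⟩ : W)))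
  have zU : (⟨z, zP⟩ : P) ∈ U :=
    H3.mem_of_cent (k := 2) r cU two (fun x _ => Subtype.ext (zc x x.2)) (Subtype.ext (sq z2))
  obtain ⟨u, uU, s, hs⟩ : ∃ u ∈ U, ∃ s, s ∉ C1(u) := by
    by_contra! j
    refine nc fun b hb e x hx => congrArg Subtype.val (mem_C1.1 (j ⟨b, hb⟩ (H3.mem_of_cent (k := 2) r cU two
      (fun y hy => (mem_C1.1 (j y hy _)).symm) (Subtype.ext e)) ⟨x, hx⟩))
  have h : H3.NK U ⟨z, zP⟩ u := ⟨P.isPGroup', r, cU, two, normal_subgroupOf_of_le_normalizer nW, zU, uU,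
    fun e => H9.ne_one_of_orderOf z2 (congrArg Subtype.val e), fun e => hs (by simp [e]),
    fun e => hs (e ▸ mem_C1.2 (Subtype.ext (zc s s.2))), fun g => Subtype.ext (zc g g.2)⟩
  have uz : IsConj u.1 (z * u.1) := isConj_iff.2 ⟨s, congrArg Subtype.val (h.sw hs)⟩
  by_cases hin : ∃ t ∈ U, t ≠ ⟨z, zP⟩ ∧ IsConj z t.1
  · obtain ⟨t, tU, tz, ct⟩ := hin
    have zu : IsConj z u.1 := by
      rcases h.cases tU with e | e | e | e
      · exact (H9.ne_one_of_orderOf z2 (by simpa [e] using ct)).elim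
      · exact (tz e).elim
      · exact e ▸ ct
      · exact ct.trans (e ▸ uz.symm)
    intro b hb b2
    obtain ⟨g, _, ⟨y, hy, rfl⟩, hg⟩ : ∃ g, ∃ w ∈ (C1(u)).map (P : Subgroup G).subtype, w = g * b * g⁻¹ := by
      obtain ⟨g, hg⟩ := GT.thompson hn hP (T := (C1(u)).map (P : Subgroup G).subtype) (by
        have := h.idx hs
        rwa [← relIndex_top_right, ← relIndex_map_map_of_injective _ _ (subtype_injective _),
          ← MonoidHom.range_eq_map, range_subtype] at this) hb (sq b2)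
      exact ⟨g, _, hg, rfl⟩
    have hg : y.1 = g * b * g⁻¹ := hg
    have o : orderOf y.1 = 2 := hg ▸ orderOf_conj.trans b2
    refine IsConj.trans ?_ (isConj_iff.2 ⟨g, hg.symm⟩).symm
    rcases h.cases (h.om hy (Subtype.ext (sq o))) with e | e | e | e
    · simp [e] at o
    · rw [e]
    · rwa [e]
    · rw [e]; exact zu.trans uz
  · push Not at hin
    obtain ⟨g, hg⟩ := isConj_iff.1 c.symm
    obtain ⟨d, hd, h1⟩ := H9.exists_conj_le_sylow_in (H := C1(z))
      (Q := H18.cj g ((C1((⟨a, aP⟩ : P))).map (Subgroup.subtype _))) (((P.isPGroup'.to_subgroup _).map _).map _) (by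
        rw [← hg, ← cj_C1, cj_le_cj]
        rintro _ ⟨x, hx, rfl⟩
        exact mem_C1.2 (congrArg Subtype.val (mem_C1.1 hx))) P fun x hx => mem_C1.2 (zc x hx)
    let φ : C1((⟨a, aP⟩ : P)) →* P := ((MulAut.conj (d * g)).toMonoidHom.comp
      ((Subgroup.subtype _).comp (C1((⟨a, aP⟩ : P))).subtype)).codRestrict _ fun x => by
        have : _ ∈ (P : Subgroup G) := h1 _ (conj_mem_cj (g := g) ⟨x.1, x.2, rfl⟩)
        simpa [mul_assoc] using this
    have k := h.out (t := ⟨a, aP⟩) (fun e => hin _ e (fun j => az (congrArg Subtype.val j)) c) φ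
      (fun x y e => Subtype.ext (Subtype.ext ((MulAut.conj (d * g)).injective (congrArg Subtype.val e))))
      (Subtype.ext (by
        show d * g * a * (d * g)⁻¹ = z
        rw [← conj_eq_self_of_C1 hd, ← hg]; group))
      fun hz e => by_contra fun j => hin _ e j (isConj_iff.2 ⟨d * g, rfl⟩)
    obtain ⟨k, x, e⟩ := H9.mc_of_card_centralizer (P.isPGroup'.to_subgroup ⊤) (mem_top ⟨a, aP⟩) (by rwa [top_inf_eq])
      fun e => hs (mem_C1.2 (comm_of_cent (abel_of_comm e) (mem_top s) (mem_top u)))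
    refine cyc x.1 ?_
    have := e.idx
    rwa [← relIndex_map_map_of_injective _ _ (subtype_injective _), ← MonoidHom.range_eq_map, range_subtype,
      MonoidHom.map_zpowers] at this

theorem solv_sub {K : Subgroup G} {t : K} (h : Solv C1(t.1)) : Solv C1(t) :=
  Group.isSolvable_of_isSolvable_injective (f := (K.subtype.comp (Subgroup.subtype _)).codRestrict C1(t.1)
    fun x => mem_C1.2 (congrArg Subtype.val (mem_C1.1 x.2)))
    ((MonoidHom.injective_codRestrict ..).2 (K.subtype_injective.comp (subtype_injective _)))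

theorem ct_of {K : Subgroup G} [K.Normal] (he : Even (Nat.card K)) (hC : ∀ t : G, orderOf t = 2 → Solv C1(t))
    (h : ∀ t ∈ K, orderOf t = 2 → θ t = ⊥) : IsCharacteristicTwoType K := by
  refine charTwoType_of he (fun t ht => pLay_C1_of_solv (solv_sub (hC _ ((orderOf_coe t).trans ht)))) fun t ht => ?_
  rw [← map_eq_bot_iff_of_injective _ K.subtype_injective, ← le_bot_iff, ← h t t.2 ((orderOf_coe t).trans ht)]
  refine (map_oQ_le K.subtype C1(t)).trans ?_
  have : (C1(t)).map K.subtype = C1(t.1) ⊓ K := by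
    ext x
    exact ⟨fun ⟨y, hy, e⟩ => e ▸ ⟨mem_C1.2 (congrArg Subtype.val (mem_C1.1 hy)), y.2⟩,
      fun ⟨a, b⟩ => ⟨⟨x, b⟩, mem_C1.2 (Subtype.ext (mem_C1.1 a)), rfl⟩⟩
  rw [this, oQ_eq_pcore, core_eq_pcore]
  exact Nml.pcore_le_pcore ⟨inf_le_left, norm_inf le_N (le_top.trans norm_of_normal)⟩

theorem oddCore_nml {K : Subgroup G} [K.Normal] (h : oddCore G = ⊥) : oddCore K = ⊥ := by
  rw [← map_eq_bot_iff_of_injective _ K.subtype_injective, ← le_bot_iff, ← h, pPrimeCore_map p2, oddCore,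
    pPrimeCore_eq p2]
  exact nml_top.pcore_le_pcore

theorem even_res (he : Even (Nat.card G)) (hO' : pPrimeCore 2 G = ⊥) (hO : pCore 2 G = ⊥) (S : Sylow 2 G) :
    ∃ z ∈ Ω[2](Z((S : Subgroup G))) ⊓ pResidual 2 G, orderOf z = 2 := by
  have hS := hall_sylow_top p2 S
  have hR := hS.inf_nml (K := pResidual 2 G) nml_top
  have : (S : Subgroup G) ⊓ pResidual 2 G ≠ ⊥ := fun e => by
    have o := (piNat_compl_iff p2).1 hR.idx
    rw [e, relIndex_bot_left] at o
    have := H3.pResidual_eq_bot_iff.1 (le_bot_iff.1 (hO' ▸ le_pPrimeCore_of_isSubnormal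
      (Normal.isSubnormal inferInstance) o))
    have := le_bot_iff.1 (hO ▸ le_pCore_of_isSubnormal (Normal.isSubnormal (H := ⊤) inferInstance)
      (this.to_subgroup ⊤))
    rw [← card_top, this] at he
    simp at he
  obtain ⟨z, hz, z2⟩ := cauchy p2 (hR.pi.inf_left.dvd_card
    (hS.pi.meet_cent hR.pi (norm_inf le_N norm_of_normal) this))
  exact ⟨z, ⟨mem_omega ⟨hz.1.1, hz.2⟩ (z2 ▸ pow_orderOf_eq_one z), hz.1.2⟩, z2⟩

theorem nml_sup (S : Sylow 2 G) : (pResidual 2 G ⊔ Ω[2](Z((S : Subgroup G)))).Normal :=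
  norm_top_iff.1 ((H3.pResidual_sup_sylow S).ge.trans
    (sup_le (le_norm le_sup_left) (norm_sup norm_of_normal omegaZ_nml.norm)))

theorem zc_cases (he : Even (Nat.card G)) (hC : ∀ t : G, orderOf t = 2 → Solv C1(t)) (S : Sylow 2 G)
    (hZ : C(Ω[2](Z((S : Subgroup G)))) ≤ N((S : Subgroup G))) (hO' : pPrimeCore 2 G = ⊥) (hO : pCore 2 G = ⊥) :
    (∃ M : Subgroup (pResidual 2 G), IsStronglyEmbedded M) ∨
      (Nat.card ↥(Ω[2](Z((S : Subgroup G))) ⊓ pResidual 2 G) = 2 ∧ ∀ h ∈ pResidual 2 G,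
        ∀ z ∈ Ω[2](Z((S : Subgroup G))) ⊓ pResidual 2 G, h * z * h⁻¹ ∈ (S : Subgroup G) →
          h * z * h⁻¹ ∈ Ω[2](Z((S : Subgroup G)))) ∨
      (Nat.card Ω[2](Z((S : Subgroup G))) = 4 ∧ Ω[2]((S : Subgroup G) ⊓ pResidual 2 G) = Ω[2](Z((S : Subgroup G)))) ∨
      IsCharacteristicTwoType ↥(pResidual 2 G ⊔ Ω[2](Z((S : Subgroup G)))) := by
  have hS := hall_sylow_top p2 S
  have hR := hS.inf_nml (K := pResidual 2 G) nml_top
  obtain ⟨z, hz, z2⟩ := even_res he hO' hO S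
  have z1 := H9.ne_one_of_orderOf z2
  have := nml_sup S
  have con : ∀ t : G, orderOf t = 2 → pLay 2 C1(t) = ⊥ := fun t ht => pLay_C1_of_solv (hC t ht)
  have ev : ∀ {K : Subgroup G}, z ∈ K → Even (Nat.card K) := fun m =>
    even_iff_two_dvd.2 (z2 ▸ H18.orderOf_dvd_card m)
  have eZ : Elem 2 Ω[2](Z((S : Subgroup G))) := omegaZ_elem
  have lZ : Ω[2](Z((S : Subgroup G))) ≤ S := omegaZ_nml.le
  have cZ : (S : Subgroup G) ≤ C(Ω[2](Z((S : Subgroup G)))) := omegaZ_cent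
  have mZ : ∀ x ∈ Z((S : Subgroup G)), x ^ 2 = 1 → x ∈ Ω[2](Z((S : Subgroup G))) := fun x => mem_omega
  have nH : ∀ M : Subgroup (pResidual 2 G), M.index ≠ 2 := H22.no2_res
  have oH : ∀ x : G, PiElt {2}ᶜ x → x ∈ pResidual 2 G := fun x e =>
    H3.mem_pResidual_of_coprime (Nat.coprime_two_right.2 (Nat.not_even_iff_odd.1 fun j => (piNat_compl_iff p2).1 e j.two_dvd))
  generalize Ω[2](Z((S : Subgroup G))) = Z at *
  generalize pResidual 2 G = H at *
  by_cases c4 : 2 ^ 2 ≤ Nat.card Z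
  · by_cases b : Big 2 S Z
    · obtain ⟨M, W, h⟩ := exists_DS con hS (b.mono bot_le le_rfl)
      refine .inr (.inr (.inr (ct_of (ev (mem_sup_left hz.2)) hC fun t _ t2 =>
        h.eq_bot (fun t ht t2 => Big.mono ?_ le_rfl h.le) hO' Cfsg.Agent.S1221.result t2)))
      by_cases m : t ∈ Z
      · exact b.mono (zpowers_le.2 m) le_rfl
      · exact (big_of_elt p2 lZ eZ c4 ht (t2 ▸ pow_orderOf_eq_one t) (cZ ht) m).mono le_sup_right le_rfl
    have all : ∀ x ∈ (S : Subgroup G), x ^ 2 = 1 → x ∈ Z := fun x hx e => mem_of_not_big p2 lZ eZ c4 b hx e (cZ hx)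
    have c := card_eq_of_not_big p2 lZ eZ c4 b
    by_cases l : Z ≤ H
    · exact .inr (.inr (.inl ⟨c, le_antisymm (omega_le_iff.2 fun x hx => all x hx.1) (eZ.le_omega (le_inf lZ l))⟩))
    · exact .inr (.inl ⟨card_eq_of_lt_sq p2 c (inf_lt_left.2 l) (ne_bot_of_mem hz z1),
        fun h _ x hx m => all _ m (by rw [conj_pow, eZ.pow x hx.1]; simp)⟩)
  obtain rfl : zpowers z = Z := by
    refine eq_of_card_ge (zpowers_le.2 hz.1) ?_
    obtain ⟨k, e⟩ := (eZ.pi p2).card_eq_pow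
    rw [card_zpowers', z2]
    rw [e] at c4 ⊢
    exact Nat.pow_le_pow_right two_pos (show k ≤ 1 by
      by_contra j; exact c4 (Nat.pow_le_pow_right two_pos (by omega)))
  have nml : H.Normal := sup_eq_left.2 (zpowers_le.2 hz.2) ▸ this
  rw [sup_eq_left.2 (zpowers_le.2 hz.2), inf_eq_left.2 (zpowers_le.2 hz.2)]
  by_cases r : PRankLE 2 2 H
  swap
  · have c : ∀ t : H, orderOf t = 2 → pLay 2 C1(t) = ⊥ := fun t ht =>
      pLay_C1_of_solv (solv_sub (hC _ ((orderOf_coe t).trans ht)))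
    obtain ⟨T, hT⟩ := exists_sylow p2 (⊤ : Subgroup H)
    obtain ⟨M, W, h⟩ := exists_DS c hT (big_sylow hT r)
    exact .inr (.inr (.inr (charTwoType_of (ev hz.2) c fun t => h.eq_bot
      (fun t ht => h.big_of_transfer (fun N _ => nH N) (h.le ht)) (oddCore_nml hO') Cfsg.Agent.S1221.result)))
  by_cases wc : ∀ h ∈ H, ∀ x ∈ zpowers z, h * x * h⁻¹ ∈ (S : Subgroup G) → h * x * h⁻¹ ∈ zpowers z
  · exact .inr (.inl ⟨card_zpowers'.trans z2, wc⟩)
  push Not at wc
  obtain ⟨h, hH, x, hx, aS, aZ⟩ := wc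
  obtain rfl := eq_of_mem_zpowers_of_two z2 hx fun e => aZ (by simp [e])
  have zc : ∀ y ∈ (S : Subgroup G), y * x = x * y := fun y hy => (cZ hy x hx).symm
  have cjz : ∀ b ∈ (S : Subgroup G) ⊓ H, orderOf b = 2 → IsConj x b := fun b hb b2 => by
    obtain ⟨P, hP⟩ := hR.exists_sylow p2
    have m : ∀ {y : G} (hy : y ∈ (S : Subgroup G) ⊓ H), (⟨y, hy.2⟩ : H) ∈ (P : Subgroup H) := fun hy => by
      obtain ⟨w, hw, rfl⟩ := hP.ge hy
      exact hw
    have m' : ∀ y ∈ (P : Subgroup H), y.1 ∈ (S : Subgroup G) := fun y hy => (hP.le (mem_map_of_mem _ hy)).1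
    have aR : h * x * h⁻¹ ∈ (S : Subgroup G) ⊓ H := ⟨aS, nml.conj_mem x hz.2 h⟩
    rcases one_class P r nH (m ⟨lZ hx, hz.2⟩) (fun y hy => Subtype.ext (zc _ (m' y hy))) ((orderOf_mk ..).trans z2)
      (m aR) (fun e => aZ ((show h * x * h⁻¹ = x from congrArg Subtype.val e).symm ▸ hx)) (isConj_iff.2 ⟨⟨h, hH⟩, rfl⟩) with k | k
    · exact H.subtype.map_isConj (k _ (m hb) ((orderOf_mk ..).trans b2))
    have a2 : orderOf (h * x * h⁻¹) = 2 := orderOf_conj.trans z2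
    have ca : IsConj x (h * x * h⁻¹) := isConj_iff.2 ⟨h, rfl⟩
    generalize h * x * h⁻¹ = a at *
    have sq : ∀ {b : G}, orderOf b = 2 → b ^ 2 = 1 := fun e => e ▸ pow_orderOf_eq_one _
    have E := card_sup_elt p2 (k := 1) eZ (card_zpowers'.trans z2).ge (sq a2) (cZ aS) aZ
    have lE : zpowers x ⊔ zpowers a ≤ (S : Subgroup G) ⊓ H := sup_le (zpowers_le.2 ⟨lZ hx, hz.2⟩) (zpowers_le.2 aR)
    have nb : ¬ Big 2 H (zpowers x ⊔ zpowers a) := fun ⟨F, _, f1, f2, f3⟩ => not_prankLE_of_elem p2 f1 f2 f3 r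
    have ccs : ∀ b ∈ (S : Subgroup G) ⊓ H, orderOf b = 2 → b = x ∨ b = a ∨ b = x * a := fun b hb b2 =>
      (H3.klein_cases (card_eq_of_not_big p2 (lE.trans inf_le_right) E.1 E.2 nb)
        (fun y hy => (pow_two y).symm.trans (E.1.pow y hy)) (mem_sup_left hx) (mem_sup_right (mem_zpowers a)) z1
        (H9.ne_one_of_orderOf a2) (fun e => aZ (e ▸ hx)) (mem_of_not_big p2 (lE.trans inf_le_right) E.1 E.2 nb hb.2
          (sq b2) fun y hy => congrArg Subtype.val (k _ (m hb) (Subtype.ext ((pow_two b).symm.trans (sq b2))) _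
            (m (lE hy))))).resolve_left (H9.ne_one_of_orderOf b2)
    rcases ccs b hb b2 with rfl | rfl | rfl
    · rfl
    · exact ca
    obtain ⟨s, hs, e⟩ : ∃ s ∈ (S : Subgroup G), s * a ≠ a * s := by
      by_contra! j
      exact aZ (mZ a ⟨aS, j⟩ (sq a2))
    rcases ccs (s * a * s⁻¹) ⟨conj_mem_N (le_N hs) aS, nml.conj_mem a aR.2 s⟩ (orderOf_conj.trans a2)
      with j | j | j
    · rw [mul_inv_eq_iff_eq_mul, ← zc s hs, mul_right_inj] at j
      exact (aZ (j ▸ hx)).elim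
    · exact (e (mul_inv_eq_iff_eq_mul.1 j)).elim
    · exact ca.trans (isConj_iff.2 ⟨s, j⟩)
  have pX : PiGrp {2}ᶜ (θ x) := core_eq_pcore (t := x) ▸ pcore_pi
  have nX : θ x ⊴ C1(x) := core_eq_pcore (t := x) ▸ pcore_nml
  have SX : (S : Subgroup G) ≤ C(θ x) := cent_of_inf_eq_bot ((cZ.trans C_zpowers.le).trans nX.norm)
    (nX.le.trans (C_zpowers.ge.trans hZ)) (hS.pi.inf_eq_bot pX)
  have eq : ∀ b ∈ H ⊓ N(θ x), orderOf b = 2 → θ b = θ x := fun b hb b2 => by
    obtain ⟨g, hg, l⟩ := sylow_le_cj p2 (hR.of_le (le_inf inf_le_right (inf_le_left.trans (SX.trans C_le_N)))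
      inf_le_left) (piGrp_of_prime p2 (card_zpowers'.trans b2)) (zpowers_le.2 hb)
    have m := l (H18.conj_mem_cj (mem_zpowers b))
    have o := (H18.orderOf_conj (g := g)).trans b2
    refine H18.cj_inj.1 ((core_conj b g).symm.trans (Eq.trans ?_ (cj_eq_self hg.2).symm))
    obtain ⟨c, hc⟩ := isConj_iff.1 (cjz _ m o)
    refine (eq_of_card_ge ((le_inf le_rfl (le_C1_iff.2 (SX m.1))).trans (core_le_core (con _ o)
      (isPGroup_zpowers_of_orderOf z2) (mem_C1.2 (zc _ m.1).symm))) ?_).symm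
    rw [← hc, core_conj, H18.card_cj]
  by_cases X1 : θ x = ⊥
  · exact .inr (.inr (.inr (ct_of (ev hz.2) hC fun t ht t2 =>
      (eq t ⟨ht, by rw [X1]; exact norm_of_normal (mem_top t)⟩ t2).trans X1)))
  refine .inl ⟨(N(θ x)).subgroupOf H, fun e => X1 (le_bot_iff.1 ?_), ?_, fun g hg =>
    Nat.not_even_iff_odd.1 fun e => hg ?_⟩
  · rw [← hO', pPrimeCore_eq p2]
    exact (le_pcore ⟨fun y hy => oH y (pX.elt hy), subgroupOf_eq_top.1 e⟩ pX).trans nml_top.pcore_le_pcore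
  · exact even_iff_two_dvd.2 (((orderOf_mk x hz.2).trans z2).symm.dvd.trans
      (H18.orderOf_dvd_card (show (⟨x, hz.2⟩ : H) ∈ _ from nX.norm C1_self)))
  · obtain ⟨a, ⟨h1, b, h2, rfl⟩, a2⟩ := cauchy p2 (even_iff_two_dvd.1 e)
    have a2 : orderOf (g.1 * b.1 * g.1⁻¹) = 2 := (orderOf_coe _).trans a2
    have := eq _ ⟨Subtype.prop _, h1⟩ a2
    change θ (g.1 * b.1 * g.1⁻¹) = _ at this
    rw [core_conj, eq _ ⟨b.2, h2⟩ (H18.orderOf_conj.symm.trans a2)] at this
    exact mem_N_iff_cj.2 this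

end H26.ZC
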